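import Cfsg.Agent.H842.FR.SdTwo

/-!
# S4970, FR-SDL: central products
-/

set_option autoImplicit false

universe u

namespace Cfsg.Agent.H842.FR

open Cfsg Cfsg.Agent.Characters.Core Cfsg.Agent.H955.FS Cfsg.Agent.H721.FR
open scoped ComplexConjugate

variable {A B G : Type u} [Group A] [Group B] [Group G] [Finite A] [Finite B]

/-- Central products: `FSZ` on the first factor, no indicator `-1` on the second one. -/
theorem fsz_central (f : A × B →* G) (hf : Function.Surjective f) {z₁ : A} (h1 : FSZ z₁) (hB : FSGood True B) :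
    FSZ (f (z₁, 1)) := by
  intro χ hχ h0
  have : Finite G := Finite.of_surjective f hf
  obtain ⟨φ, ψ, hφ, hψ, he⟩ := (S0188.result (χ ∘ f)).1 (isIrr_comp f hf hχ)
  have h2 : fsi χ = fsi φ * fsi ψ := by
    rw [← fsi_comp f hf, he, fsi_outer]
  have h3 : χ (f (z₁, 1)) = φ z₁ * ψ 1 := congrFun he (z₁, 1)
  have h4 : χ 1 = φ 1 * ψ 1 := by
    have := congrFun he 1
    rwa [Function.comp_apply, map_one] at this
  have hφ1 : φ 1 ≠ 0 := isIrr_apply_one_ne_zero hφ
  have hψ1 : ψ 1 ≠ 0 := isIrr_apply_one_ne_zero hψ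
  rw [h2, h3, h4] at h0
  rcases hB ψ hψ with h5 | ⟨-, h5⟩
  · apply h1 φ hφ
    apply mul_right_cancel₀ hψ1
    rw [h5] at h0
    linear_combination h0
  · rw [h5] at h0
    have h6 : φ 1 * ψ 1 = 0 := by linear_combination h0
    exact (mul_ne_zero hφ1 hψ1) h6

/-- Central products of two groups with `FSZ` and identified central elements. -/
theorem good_central (f : A × B →* G) (hf : Function.Surjective f) {z₁ : A} {z₂ : B}
    (hz : f (z₁, 1) = f (1, z₂)) (hzc : ∀ a, a * z₁ = z₁ * a) (hz2 : z₁ * z₁ = 1) (h1 : FSZ z₁) (h2 : FSZ z₂) :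
    FSGood True G := by
  have : Finite G := Finite.of_surjective f hf
  refine DS.good_of_core fun χ hχ h0 => ?_
  obtain ⟨φ, ψ, hφ, hψ, he⟩ := (S0188.result (χ ∘ f)).1 (isIrr_comp f hf hχ)
  have h3 : fsi χ = fsi φ * fsi ψ := by
    rw [← fsi_comp f hf, he, fsi_outer]
  have h4 : φ z₁ * ψ 1 = φ 1 * ψ z₂ := by
    have e1 := congrFun he (z₁, 1)
    have e2 := congrFun he (1, z₂)
    rw [Function.comp_apply] at e1 e2
    rw [← e1, ← e2, hz]
  have hφ1 : φ 1 ≠ 0 := isIrr_apply_one_ne_zero hφ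
  have hψ1 : ψ 1 ≠ 0 := isIrr_apply_one_ne_zero hψ
  have h5 : φ z₁ = φ 1 ∨ φ z₁ = - φ 1 := by
    rcases sign_or hzc hz2 hφ with h | h
    · left
      have := h 1
      rwa [mul_one] at this
    · right
      have := h 1
      rwa [mul_one] at this
  have h6 := h1 φ hφ
  have h7 := h2 ψ hψ
  rw [h3] at h0
  rcases h5 with h5 | h5
  · have h8 : ψ z₂ = ψ 1 := by
      rw [h5] at h4
      exact (mul_left_cancel₀ hφ1 h4).symm
    rw [h5] at h6
    rw [h8] at h7
    have h9 : fsi φ ≠ -1 := fun h => h6 (by rw [h]; ring)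
    have h10 : fsi ψ ≠ -1 := fun h => h7 (by rw [h]; ring)
    rcases fsi_cases hφ with e1 | e1 | e1
    · rw [e1, zero_mul] at h0
      norm_num at h0
    · rw [e1, one_mul] at h0
      exact h10 h0
    · exact h9 e1
  · have h8 : ψ z₂ = - ψ 1 := by
      rw [h5] at h4
      apply mul_left_cancel₀ hφ1
      linear_combination -h4
    rw [h5] at h6
    rw [h8] at h7
    have h9 : fsi φ ≠ 1 := fun h => h6 (by rw [h]; ring)
    have h10 : fsi ψ ≠ 1 := fun h => h7 (by rw [h]; ring)
    rcases fsi_cases hφ with e1 | e1 | e1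
    · rw [e1, zero_mul] at h0
      norm_num at h0
    · exact h9 e1
    · rw [e1] at h0
      apply h10
      linear_combination -h0

end Cfsg.Agent.H842.FR
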