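import Cfsg.Agent.H955.FSBase
import Cfsg.Agent.H113.NormTwoChar
import Cfsg.Agent.H668.CharPeel

/-!
# S4970, FR-SDL: characters of `⟨c⟩ P`, `c` of odd order, `P` a 2-group whose elements centralise or invert `c`
-/

set_option autoImplicit false

universe u

namespace Cfsg.Agent.H842.FR

open Cfsg Cfsg.Agent.Characters.Core Cfsg.Agent.H955.FS
open scoped ComplexConjugate

/-- Either the coset sums over a normal subgroup vanish or the normal subgroup acts trivially. -/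
theorem coset_or {K : Type u} [Group K] [Finite K] (N : Subgroup K) [hN : N.Normal] [Fintype N] {χ : K → ℂ}
    (hχ : IsIrrCharacter K χ) : (∀ k, ∑ a : N, χ (a * k) = 0) ∨ ∀ a ∈ N, ∀ k, χ (a * k) = χ k := by
  obtain ⟨n, ρ, hρ, rfl⟩ := hχ
  set f : Module.End ℂ (Fin n → ℂ) := ∑ x : N, ρ (x : K) with hf
  have hcomm : ∀ g, f * ρ g = ρ g * f := by
    intro g
    rw [hf, Finset.sum_mul, Finset.mul_sum]
    refine Fintype.sum_equiv (MulAut.conjNormal (g⁻¹) : N ≃* N).toEquiv _ _ fun x => ?_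
    rw [← map_mul, ← map_mul]
    congr 1
    simp only [MulEquiv.toEquiv_eq_coe, EquivLike.coe_coe, MulAut.conjNormal_apply, inv_inv]
    group
  have hsc := Cfsg.Agent.Characters.Central.eq_trace_smul_of_comm ρ hρ f hcomm
  set c : ℂ := LinearMap.trace ℂ (Fin n → ℂ) f / ρ.character 1 with hc
  by_cases h0 : c = 0
  · left
    intro k
    have h1 : ∑ x : N, ρ.character (x * k) = LinearMap.trace ℂ _ (f * ρ k) := by
      rw [hf, Finset.sum_mul, map_sum]
      refine Finset.sum_congr rfl fun x _ => ?_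
      rw [← map_mul]; rfl
    rw [h1, hsc, h0, zero_smul, zero_mul, map_zero]
  · right
    intro a ha k
    have h1 : ρ a * f = f := by
      rw [hf, Finset.mul_sum]
      refine Fintype.sum_equiv (Equiv.mulLeft (⟨a, ha⟩ : N)) _ _ fun x => ?_
      rw [← map_mul]
      rfl
    rw [hsc, mul_smul_comm, mul_one] at h1
    have h2 : ρ a = 1 := smul_right_injective _ h0 h1
    show LinearMap.trace ℂ _ (ρ (a * k)) = LinearMap.trace ℂ _ (ρ k)
    rw [map_mul, h2, one_mul]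

/-- `K = ⟨c⟩ P`, `c ≠ 1` of odd order, `P` a 2-group whose elements centralise or invert `c`, `P0 = C_P(c) ≠ P`. -/
structure DS {K : Type u} [Group K] (c : K) (P P0 : Subgroup K) : Prop where
  odd : Odd (orderOf c)
  ne : c ≠ 1
  two : IsPGroup 2 P
  gen : Subgroup.closure {c} ⊔ P = ⊤
  act : ∀ g ∈ P, g * c * g⁻¹ = c ∨ g * c * g⁻¹ = c⁻¹
  mem : ∀ g, g ∈ P0 ↔ g ∈ P ∧ g * c * g⁻¹ = c
  lt : ∃ t ∈ P, t ∉ P0

namespace DS

variable {K : Type u} [Group K] {c : K} {P P0 : Subgroup K}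

theorem le (h : DS c P P0) : P0 ≤ P := fun _ hg => ((h.mem _).1 hg).1

theorem comm (h : DS c P P0) {y : K} (hy : y ∈ P0) {a : K} (ha : a ∈ Subgroup.zpowers c) : y * a * y⁻¹ = a := by
  obtain ⟨k, rfl⟩ := ha
  show y * c ^ k * y⁻¹ = c ^ k
  rw [← conj_zpow, ((h.mem _).1 hy).2]

theorem inv (h : DS c P P0) {y : K} (hy : y ∈ P) (hy0 : y ∉ P0) {a : K} (ha : a ∈ Subgroup.zpowers c) :
    y * a * y⁻¹ = a⁻¹ := by
  obtain ⟨k, rfl⟩ := ha
  show y * c ^ k * y⁻¹ = (c ^ k)⁻¹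
  rcases h.act y hy with h1 | h1
  · exact absurd ((h.mem _).2 ⟨hy, h1⟩) hy0
  · rw [← conj_zpow, h1, inv_zpow]

theorem conj_mem (h : DS c P P0) {y : K} (hy : y ∈ P) {a : K} (ha : a ∈ Subgroup.zpowers c) :
    y * a * y⁻¹ ∈ Subgroup.zpowers c := by
  by_cases hy0 : y ∈ P0
  · rw [h.comm hy0 ha]
    exact ha
  · rw [h.inv hy hy0 ha]
    exact inv_mem ha

theorem normal (h : DS c P P0) : (Subgroup.zpowers c).Normal := by
  rw [← Subgroup.normalizer_eq_top_iff, eq_top_iff, ← h.gen]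
  refine sup_le ?_ ?_
  · rw [← Subgroup.zpowers_eq_closure]
    exact Subgroup.le_normalizer
  · intro y hy
    rw [Subgroup.mem_normalizer_iff]
    intro a
    constructor
    · exact fun ha => h.conj_mem hy ha
    · intro ha
      have := h.conj_mem (inv_mem hy) ha
      rwa [inv_inv, show y⁻¹ * (y * a * y⁻¹) * y = a by group] at this

theorem sqrt (h : DS c P P0) {a : K} (ha : a ∈ Subgroup.zpowers c) : ∃ b ∈ Subgroup.zpowers c, b * b = a := by
  obtain ⟨m, hm⟩ := h.odd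
  refine ⟨a ^ (m + 1), pow_mem ha _, ?_⟩
  have h1 : a ^ orderOf c = 1 := by
    obtain ⟨k, rfl⟩ := ha
    show (c ^ k) ^ orderOf c = 1
    rw [← zpow_natCast, zpow_comm, zpow_natCast, pow_orderOf_eq_one, one_zpow]
  rw [← pow_add, show m + 1 + (m + 1) = orderOf c + 1 by omega, pow_succ, h1, one_mul]

theorem bij [Finite K] (h : DS c P P0) :
    Function.Bijective (fun x : Subgroup.zpowers c × P => (x.1 : K) * x.2) := by
  have := h.normal
  constructor
  · rintro ⟨⟨a, ha⟩, ⟨y, hy⟩⟩ ⟨⟨a', ha'⟩, ⟨y', hy'⟩⟩ hxy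
    simp only at hxy
    have h1 : a'⁻¹ * a = y' * y⁻¹ := by
      calc a'⁻¹ * a = a'⁻¹ * (a * y) * y⁻¹ := by group
        _ = a'⁻¹ * (a' * y') * y⁻¹ := by rw [hxy]
        _ = _ := by group
    have h2 : a'⁻¹ * a ∈ Subgroup.zpowers c := mul_mem (inv_mem ha') ha
    have h3 : a'⁻¹ * a ∈ P := by
      rw [h1]
      exact mul_mem hy' (inv_mem hy)
    have h4 : a'⁻¹ * a = 1 := by
      obtain ⟨k, hk⟩ := h.two ⟨_, h3⟩
      have h5 : orderOf (a'⁻¹ * a) ∣ 2 ^ k := orderOf_dvd_of_pow_eq_one (by simpa using congrArg Subtype.val hk)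
      have h6 : orderOf (a'⁻¹ * a) ∣ orderOf c := orderOf_dvd_of_mem_zpowers h2
      have h7 : Nat.Coprime (2 ^ k) (orderOf c) := Nat.Coprime.pow_left _ (Nat.coprime_two_left.2 h.odd)
      exact orderOf_eq_one_iff.1 (Nat.eq_one_of_dvd_coprimes h7 h5 h6)
    have h5 : a' = a := inv_mul_eq_one.1 h4
    rw [h4] at h1
    have h6 : y' = y := mul_inv_eq_one.1 h1.symm
    subst h5 h6
    rfl
  · intro x
    have hx : x ∈ Subgroup.zpowers c ⊔ P := by
      rw [Subgroup.zpowers_eq_closure, h.gen]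
      trivial
    obtain ⟨a, ha, y, hy, rfl⟩ := Subgroup.mem_sup_of_normal_left.1 hx
    exact ⟨(⟨a, ha⟩, ⟨y, hy⟩), rfl⟩

theorem mul_mem_P0 (h : DS c P P0) {x y : K} (hx : x ∈ P) (hx0 : x ∉ P0) (hy : y ∈ P) (hy0 : y ∉ P0) :
    x * y ∈ P0 := by
  rw [h.mem]
  refine ⟨mul_mem hx hy, ?_⟩
  have hc := Subgroup.mem_zpowers c
  calc x * y * c * (x * y)⁻¹ = x * (y * c * y⁻¹) * x⁻¹ := by group
    _ = x * c⁻¹ * x⁻¹ := by rw [h.inv hy hy0 hc]
    _ = (x * c * x⁻¹)⁻¹ := by group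
    _ = c := by rw [h.inv hx hx0 hc, inv_inv]

theorem inv_not_mem (_h : DS c P P0) {x : K} (hx0 : x ∉ P0) : x⁻¹ ∉ P0 := fun hx => hx0 (inv_mem_iff.1 hx)

/-- conjugation by an element of `P` on `P0` -/
theorem conj_P0 (h : DS c P P0) {t y : K} (ht : t ∈ P) (hy : y ∈ P0) : t⁻¹ * y * t ∈ P0 := by
  by_cases ht0 : t ∈ P0
  · exact mul_mem (mul_mem (inv_mem ht0) hy) ht0
  · refine h.mul_mem_P0 (mul_mem (inv_mem ht) (h.le hy)) ?_ ht ht0
    intro h1
    apply h.inv_not_mem ht0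
    have := mul_mem h1 (inv_mem hy)
    rwa [mul_inv_cancel_right] at this

end DS

end Cfsg.Agent.H842.FR
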