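import Cfsg.Agent.H842.FR.Dih
import Cfsg.Agent.S0851

/-!
# S4970, FR-SDL: the irreducible characters of `⟨c⟩ P`
-/

set_option autoImplicit false

universe u

namespace Cfsg.Agent.H842.FR

open Cfsg Cfsg.Agent.Characters.Core Cfsg.Agent.H955.FS
open scoped ComplexConjugate

theorem zp_comm {K : Type u} [Group K] {c : K} (a b : Subgroup.zpowers c) : a * b = b * a := by
  obtain ⟨k, hk⟩ := a.2
  obtain ⟨l, hl⟩ := b.2
  ext
  rw [Subgroup.coe_mul, Subgroup.coe_mul, ← hk, ← hl]
  exact (Commute.refl c).zpow_zpow k l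

namespace DS

variable {K : Type u} [Group K] {c : K} {P P0 : Subgroup K}

section sums

variable [Fintype K] [Fintype (Subgroup.zpowers c)] [Fintype P] [Fintype P0]

omit [Fintype P0] in
theorem sum_K (h : DS c P P0) (f : K → ℂ) : ∑ x, f x = ∑ a : Subgroup.zpowers c, ∑ y : P, f (a * y) := by
  rw [← Fintype.sum_prod_type' (f := fun (a : Subgroup.zpowers c) (y : P) => f (a * y))]
  exact (Fintype.sum_equiv (Equiv.ofBijective _ h.bij) _ _ fun x => rfl).symm

omit [Fintype K] [Fintype (Subgroup.zpowers c)] in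
open Classical in
theorem sum_P (h : DS c P P0) (f : K → ℂ) :
    ∑ y : P, f y = ∑ y : P0, f y + ∑ y : P, if (y : K) ∈ P0 then 0 else f y := by
  have h1 : ∀ y : P, f y = (if (y : K) ∈ P0 then f y else 0) + if (y : K) ∈ P0 then 0 else f y := by
    intro y
    split_ifs <;> simp
  rw [Finset.sum_congr rfl fun y _ => h1 y, Finset.sum_add_distrib]
  congr 1
  rw [← Finset.sum_filter]
  refine Finset.sum_bij' (fun y hy => (⟨(y : K), (Finset.mem_filter.1 hy).2⟩ : P0)) (fun y _ => (⟨(y : K), h.le y.2⟩ : P))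
    ?_ ?_ ?_ ?_ ?_
  · intro a _
    exact Finset.mem_univ _
  · intro a _
    exact Finset.mem_filter.2 ⟨Finset.mem_univ _, a.2⟩
  · intro a _
    rfl
  · intro a _
    rfl
  · intro a _
    rfl

end sums

theorem card_K [Finite K] (h : DS c P P0) : Nat.card K = Nat.card (Subgroup.zpowers c) * Nat.card P := by
  rw [← Nat.card_congr (Equiv.ofBijective _ h.bij), Nat.card_prod]

theorem card_P [Finite K] (h : DS c P P0) : Nat.card P = 2 * Nat.card P0 := by
  have h1 : (P0.subgroupOf P).index = 2 := by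
    rw [Subgroup.index_eq_two_iff]
    obtain ⟨t, ht, ht0⟩ := h.lt
    refine ⟨⟨t, ht⟩, fun b => ?_⟩
    rw [Subgroup.mem_subgroupOf, Subgroup.mem_subgroupOf]
    by_cases hb : (b : K) ∈ P0
    · right
      refine ⟨hb, fun h2 => ht0 ?_⟩
      have := mul_mem (inv_mem hb) h2
      rwa [Subgroup.coe_mul, inv_mul_cancel_left] at this
    · left
      exact ⟨h.mul_mem_P0 b.2 hb ht ht0, hb⟩
  have h2 := Subgroup.card_mul_index (P0.subgroupOf P)
  rw [h1, Nat.card_congr (Subgroup.subgroupOfEquivOfLe h.le).toEquiv] at h2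
  omega

/-- a character not trivial on `c` vanishes outside `⟨c⟩ P0` -/
theorem vanish [Finite K] (h : DS c P P0) [Fintype (Subgroup.zpowers c)] {χ : K → ℂ} (hχ : IsIrrCharacter K χ)
    (h0 : ∀ k, ∑ a : Subgroup.zpowers c, χ (a * k) = 0) {a y : K} (ha : a ∈ Subgroup.zpowers c) (hy : y ∈ P)
    (hy0 : y ∉ P0) : χ (a * y) = 0 := by
  have h1 : ∀ a ∈ Subgroup.zpowers c, χ (a * y) = χ y := by
    intro a ha
    obtain ⟨b, hb, rfl⟩ := h.sqrt ha
    have h2 : b * y * b⁻¹ = b * b * y := by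
      calc b * y * b⁻¹ = b * (y * b⁻¹ * y⁻¹) * y := by group
        _ = b * b * y := by rw [h.inv hy hy0 (inv_mem hb), inv_inv]
    rw [← h2]
    exact isIrr_isClassFunction hχ y b
  have h2 := h0 y
  have h2' : ∀ b : Subgroup.zpowers c, χ (b * y) = χ y := fun b => h1 b b.2
  simp_rw [h2'] at h2
  rw [Finset.sum_const, nsmul_eq_mul] at h2
  rw [h1 a ha]
  rcases mul_eq_zero.1 h2 with h3 | h3
  · exfalso
    rw [Finset.card_univ] at h3
    have : (Fintype.card (Subgroup.zpowers c) : ℂ) ≠ 0 := by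
      exact_mod_cast Fintype.card_ne_zero
    exact this h3
  · exact h3

/-- the multiplication map on `⟨c⟩ × P0` -/
noncomputable def emb (h : DS c P P0) : Subgroup.zpowers c × P0 →* K :=
  MonoidHom.mk' (fun x => (x.1 : K) * x.2) (by
    rintro ⟨a, y⟩ ⟨b, z⟩
    have h1 := h.comm y.2 b.2
    have h2 : (y : K) * b = b * y := mul_inv_eq_iff_eq_mul.1 h1
    show (a : K) * b * (y * z) = a * y * (b * z)
    calc (a : K) * b * (y * z) = a * (b * y) * z := by group
      _ = a * (y * b) * z := by rw [h2]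
      _ = _ := by group)

theorem emb_apply (h : DS c P P0) (x : Subgroup.zpowers c × P0) : h.emb x = x.1 * x.2 := rfl

/-- conjugation by `t ∈ P` on `⟨c⟩ × P0` -/
noncomputable def tau (h : DS c P P0) {t : K} (ht : t ∈ P) :
    Subgroup.zpowers c × P0 →* Subgroup.zpowers c × P0 :=
  MonoidHom.mk' (fun x => (⟨t⁻¹ * x.1 * t, by
      have := h.conj_mem (inv_mem ht) x.1.2
      rwa [inv_inv] at this⟩, ⟨t⁻¹ * x.2 * t, h.conj_P0 ht x.2.2⟩)) (by
    rintro ⟨a, y⟩ ⟨b, z⟩
    ext
    · show t⁻¹ * (a * b) * t = (t⁻¹ * a * t) * (t⁻¹ * b * t)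
      group
    · show t⁻¹ * (y * z) * t = (t⁻¹ * y * t) * (t⁻¹ * z * t)
      group)

theorem tau_surj [Finite K] (h : DS c P P0) {t : K} (ht : t ∈ P) : Function.Surjective (h.tau ht) := by
  rw [← Finite.injective_iff_surjective]
  rintro ⟨⟨a, ha⟩, ⟨y, hy⟩⟩ ⟨⟨b, hb⟩, ⟨z, hz⟩⟩ hxy
  have h1 : t⁻¹ * a * t = t⁻¹ * b * t := congrArg (fun x => (x.1 : K)) hxy
  have h2 : t⁻¹ * y * t = t⁻¹ * z * t := congrArg (fun x => (x.2 : K)) hxy
  have h3 : a = b := by
    have := mul_right_cancel h1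
    exact mul_left_cancel this
  have h4 : y = z := by
    have := mul_right_cancel h2
    exact mul_left_cancel this
  subst h3 h4
  rfl

theorem emb_tau (h : DS c P P0) {t : K} (ht : t ∈ P) (x : Subgroup.zpowers c × P0) :
    h.emb (h.tau ht x) = t⁻¹ * h.emb x * t := by
  show (t⁻¹ * x.1 * t) * (t⁻¹ * x.2 * t) = t⁻¹ * (x.1 * x.2) * t
  group

/-- the norm of the restriction to `⟨c⟩ P0` is two -/
theorem norm_two [Finite K] (h : DS c P P0) [Fintype (Subgroup.zpowers c)] [Fintype P0] {χ : K → ℂ}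
    (hχ : IsIrrCharacter K χ) (h0 : ∀ k, ∑ a : Subgroup.zpowers c, χ (a * k) = 0) :
    classInner (fun x => χ (h.emb x)) (fun x => χ (h.emb x)) = 2 := by
  classical
  have := Fintype.ofFinite K
  have := Fintype.ofFinite P
  have h1 := classInner_irr_self hχ
  rw [classInner_def, h.sum_K] at h1
  have h2 : ∀ a : Subgroup.zpowers c, ∑ y : P, χ (a * y) * conj (χ (a * y)) =
      ∑ y : P0, χ (a * y) * conj (χ (a * y)) := by
    intro a
    rw [h.sum_P (fun y => χ (a * y) * conj (χ (a * y)))]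
    rw [add_eq_left]
    refine Finset.sum_eq_zero fun y _ => ?_
    split_ifs with hy
    · rfl
    · rw [h.vanish hχ h0 a.2 y.2 hy, zero_mul]
  rw [Finset.sum_congr rfl (fun a _ => h2 a)] at h1
  rw [classInner_def, Fintype.sum_prod_type, Nat.card_prod]
  rw [h.card_K, h.card_P] at h1
  have hC : (Nat.card (Subgroup.zpowers c) : ℂ) ≠ 0 := by exact_mod_cast Nat.card_pos.ne'
  have hP : (Nat.card P0 : ℂ) ≠ 0 := by exact_mod_cast Nat.card_pos.ne'
  set S : ℂ := ∑ a : Subgroup.zpowers c, ∑ y : P0, χ (a * y) * conj (χ (a * y)) with hS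
  have h3 : S = Nat.card (Subgroup.zpowers c) * (2 * Nat.card P0) := by
    push_cast at h1
    have h4 : (Nat.card (Subgroup.zpowers c) : ℂ) * (2 * Nat.card P0) ≠ 0 :=
      mul_ne_zero hC (mul_ne_zero two_ne_zero hP)
    field_simp at h1
    rw [h1]
    ring
  show ((Nat.card (Subgroup.zpowers c) * Nat.card P0 : ℕ) : ℂ)⁻¹ * S = 2
  rw [h3]
  push_cast
  field_simp

/-- **The restriction to `⟨c⟩ P0`** -/
theorem exists_rho [Finite K] (h : DS c P P0) [Fintype (Subgroup.zpowers c)] {χ : K → ℂ}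
    (hχ : IsIrrCharacter K χ) (h0 : ∀ k, ∑ a : Subgroup.zpowers c, χ (a * k) = 0) {t : K} (ht : t ∈ P)
    (ht0 : t ∉ P0) :
    ∃ ρ : P0 → ℂ, IsIrrCharacter P0 ρ ∧ ∀ y : P0, χ y = ρ y + ρ ⟨t⁻¹ * y * t, h.conj_P0 ht y.2⟩ := by
  classical
  have := Fintype.ofFinite P0
  have hchar : IsCharacter (Subgroup.zpowers c × P0) (fun x => χ (h.emb x)) :=
    isCharacter_comp h.emb (isIrr_isCharacter hχ)
  obtain ⟨θ₁, θ₂, h1, h2, hne, hs⟩ := H113.NormTwoChar.exists_add_of_norm_two hchar (h.norm_two hχ h0)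
  have hinv : ∀ x, χ (h.emb (h.tau ht x)) = χ (h.emb x) := by
    intro x
    rw [h.emb_tau]
    have := isIrr_isClassFunction hχ (h.emb x) t⁻¹
    rwa [inv_inv] at this
  have hs' : ∀ x, χ (h.emb x) = θ₁ x + θ₂ x := fun x => congrFun hs x
  have hτ : ∀ θ, IsIrrCharacter (Subgroup.zpowers c × P0) θ →
      IsIrrCharacter (Subgroup.zpowers c × P0) (fun x => θ (h.tau ht x)) := fun θ hθ =>
    isIrr_comp (h.tau ht) (h.tau_surj ht) hθ
  -- `θ₁` is not invariant
  have hinv1 : (fun x => θ₁ (h.tau ht x)) ≠ θ₁ := by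
    intro heq
    obtain ⟨l, ρ, hl, hρ, hlr⟩ := (S0188.result θ₁).1 h1
    have hcom : ∀ a b : Subgroup.zpowers c, a * b = b * a := zp_comm
    have hl1 := S0851.irr_apply_one_of_comm hcom hl
    obtain ⟨f, hf⟩ := Characters.Linear.exists_hom_of_isIrrCharacter hl hl1
    have hρ1 : ρ 1 ≠ 0 := isIrr_apply_one_ne_zero hρ
    have hf1 : ∀ a, f a⁻¹ = f a := by
      intro a
      have h3 := congrFun heq (a, 1)
      rw [hlr] at h3
      have h4 : (h.tau ht (a, 1)) = (a⁻¹, 1) := by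
        ext
        · show t⁻¹ * (a : K) * t = (a : K)⁻¹
          have := h.inv (inv_mem ht) (h.inv_not_mem ht0) a.2
          rwa [inv_inv] at this
        · show t⁻¹ * (1 : K) * t = 1
          group
      simp only [h4] at h3
      have h5 := mul_right_cancel₀ hρ1 h3
      rw [hf] at h5
      exact Units.ext h5
    have hf2 : ∀ a, f a = 1 := by
      intro a
      obtain ⟨b, hb, hba⟩ := h.sqrt a.2
      have h6 : a = (⟨b, hb⟩ : Subgroup.zpowers c) * ⟨b, hb⟩ := Subtype.ext hba.symm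
      rw [h6, map_mul]
      nth_rewrite 1 [← hf1]
      rw [← map_mul, inv_mul_cancel, map_one]
    have h7 : classInner (fun x => χ (h.emb x)) θ₁ = 0 := by
      rw [classInner_def, Fintype.sum_prod_type, Finset.sum_comm]
      have h8 : ∀ y : P0, ∑ a : Subgroup.zpowers c, χ (h.emb (a, y)) * conj (θ₁ (a, y)) = 0 := by
        intro y
        have h9 : ∀ a : Subgroup.zpowers c, χ (h.emb (a, y)) * conj (θ₁ (a, y)) = χ (a * y) * conj (ρ y) := by
          intro a
          rw [hlr, hf]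
          simp only [hf2, Units.val_one, one_mul]
          rfl
        rw [Finset.sum_congr rfl (fun a _ => h9 a), ← Finset.sum_mul, h0, zero_mul]
      rw [Finset.sum_congr rfl (fun y _ => h8 y)]
      simp
    have h10 : classInner (fun x => χ (h.emb x)) θ₁ = 1 := by
      rw [hs, classInner_add_left, classInner_irr_self h1, classInner_irr_ne h2 h1 hne.symm, add_zero]
    rw [h7] at h10
    exact zero_ne_one h10
  -- hence it is mapped to `θ₂`
  have h3 : (fun x => θ₁ (h.tau ht x)) = θ₂ := by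
    by_contra hne2
    have h4 : classInner (fun x => χ (h.emb x)) (fun x => θ₁ (h.tau ht x)) = 0 := by
      rw [hs, classInner_add_left, classInner_irr_ne h1 (hτ θ₁ h1) (Ne.symm hinv1),
        classInner_irr_ne h2 (hτ θ₁ h1) (Ne.symm hne2), add_zero]
    have h5 : (fun x => χ (h.emb x)) = (fun x => θ₁ (h.tau ht x)) + fun x => θ₂ (h.tau ht x) := by
      funext x
      rw [Pi.add_apply, ← hs', hinv]
    rw [h5, classInner_add_left, classInner_irr_self (hτ θ₁ h1)] at h4
    obtain ⟨m, hm⟩ := classInner_isNat (isIrr_isCharacter (hτ θ₂ h2)) (isIrr_isCharacter (hτ θ₁ h1))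
    rw [hm] at h4
    have h6 : ((1 + m : ℕ) : ℂ) = 0 := by
      push_cast
      exact h4
    have h7 : 1 + m = 0 := by exact_mod_cast h6
    omega
  obtain ⟨l, ρ, hl, hρ, hlr⟩ := (S0188.result θ₁).1 h1
  have hcom : ∀ a b : Subgroup.zpowers c, a * b = b * a := zp_comm
  have hl1 := S0851.irr_apply_one_of_comm hcom hl
  refine ⟨ρ, hρ, fun y => ?_⟩
  have h4 := hs' (1, y)
  rw [← h3] at h4
  simp only [hlr] at h4
  have h5 : (h.tau ht (1, y)).1 = 1 := by
    ext
    show t⁻¹ * (1 : K) * t = 1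
    group
  rw [h5, hl1, one_mul, one_mul] at h4
  have h6 : h.emb (1, y) = y := one_mul _
  rw [h6] at h4
  exact h4

end DS

end Cfsg.Agent.H842.FR
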