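import Cfsg.Agent.H842.FR.SdMax
import Cfsg.Agent.H842.FR.Cp

/-!
# S4970, FR-SDL: ambient versions
-/

set_option autoImplicit false

universe u v

namespace Cfsg.Agent.H842.FR

open Cfsg Cfsg.Agent.H955.FS Cfsg.Agent.H721.FR

variable {Γ : Type u} [Group Γ]

/-- the elements of `P` centralising `c` -/
def cen (c : Γ) (P : Subgroup Γ) : Subgroup Γ where
  carrier := {g | g ∈ P ∧ g * c * g⁻¹ = c}
  mul_mem' := by
    rintro a b ⟨ha, ha'⟩ ⟨hb, hb'⟩
    refine ⟨mul_mem ha hb, ?_⟩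
    calc a * b * c * (a * b)⁻¹ = a * (b * c * b⁻¹) * a⁻¹ := by group
      _ = c := by rw [hb', ha']
  one_mem' := ⟨one_mem _, by group⟩
  inv_mem' := by
    rintro a ⟨ha, ha'⟩
    refine ⟨inv_mem ha, ?_⟩
    calc a⁻¹ * c * a⁻¹⁻¹ = a⁻¹ * (a * c * a⁻¹) * a⁻¹⁻¹ := by rw [ha']
      _ = c := by group

theorem mem_cen {c : Γ} {P : Subgroup Γ} {g : Γ} : g ∈ cen c P ↔ g ∈ P ∧ g * c * g⁻¹ = c := Iff.rfl

/-- the structure `DS` inside an ambient group -/
theorem ds_amb {c : Γ} (hc : Odd (orderOf c)) (hc1 : c ≠ 1) {P : Subgroup Γ} (hP : IsPGroup 2 P)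
    (hact : ∀ g ∈ P, g * c * g⁻¹ = c ∨ g * c * g⁻¹ = c⁻¹) (ht : ∃ t ∈ P, t * c * t⁻¹ = c⁻¹)
    {Y : Subgroup Γ} (hY : Y = Subgroup.closure {c} ⊔ P) (hcY : c ∈ Y) :
    DS (⟨c, hcY⟩ : Y) (P.subgroupOf Y) ((cen c P).subgroupOf Y) := by
  have hPY : P ≤ Y := by rw [hY]; exact le_sup_right
  refine ⟨?_, ?_, ?_, ?_, ?_, ?_, ?_⟩
  · rw [Subgroup.orderOf_mk]
    exact hc
  · intro h
    exact hc1 (congrArg Subtype.val h)
  · exact hP.comap_of_injective Y.subtype Y.subtype_injective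
  · apply Subgroup.map_injective Y.subtype_injective
    rw [Subgroup.map_sup, MonoidHom.map_closure, Set.image_singleton, Subgroup.subgroupOf_map_subtype,
      ← MonoidHom.range_eq_map, Subgroup.range_subtype, inf_eq_left.2 hPY]
    exact hY.symm
  · intro g hg
    rcases hact g (Subgroup.mem_subgroupOf.1 hg) with h | h
    · exact Or.inl (Subtype.ext h)
    · exact Or.inr (Subtype.ext h)
  · intro g
    rw [Subgroup.mem_subgroupOf, Subgroup.mem_subgroupOf, mem_cen]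
    constructor
    · rintro ⟨h1, h2⟩
      exact ⟨h1, Subtype.ext h2⟩
    · rintro ⟨h1, h2⟩
      exact ⟨h1, congrArg Subtype.val h2⟩
  · obtain ⟨t, ht, htc⟩ := ht
    refine ⟨⟨t, hPY ht⟩, Subgroup.mem_subgroupOf.2 ht, fun h => ?_⟩
    rw [Subgroup.mem_subgroupOf, mem_cen] at h
    have h1 : c = c⁻¹ := by rw [← htc]; exact h.2.symm
    have h2 : c * c = 1 := by
      nth_rewrite 2 [h1]
      exact mul_inv_cancel c
    have h3 : orderOf c ∣ 2 := orderOf_dvd_of_pow_eq_one (by rw [pow_two, h2])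
    rcases (Nat.dvd_prime Nat.prime_two).1 h3 with h4 | h4
    · exact hc1 (orderOf_eq_one_iff.1 h4)
    · rw [h4] at hc
      exact absurd hc (by decide)

/-- **SDL, ambient form**: `φ` a faithful representation of the 2-group `P` in dimension two over a field of odd
characteristic; elements of determinant `1` centralise `c`, those of determinant `-1` invert `c`; two elements of
determinant one do not commute. -/
theorem sdl_amb {c : Γ} (hc : Odd (orderOf c)) (hc1 : c ≠ 1) {P : Subgroup Γ} (hP : IsPGroup 2 P)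
    (ht : ∃ t ∈ P, t * c * t⁻¹ = c⁻¹)
    {Y : Subgroup Γ} [Finite Y] (hY : Y = Subgroup.closure {c} ⊔ P)
    {F : Type v} [Field F] (h2 : (2 : F) ≠ 0)
    {V : Type*} [AddCommGroup V] [Module F V] (hV : Module.finrank F V = 2)
    (φ : P →* (V →ₗ[F] V)) (hinj : Function.Injective φ)
    (hd : ∀ g : P, ((g : Γ) * c * (g : Γ)⁻¹ = c ∧ LinearMap.det (φ g) = 1) ∨
      ((g : Γ) * c * (g : Γ)⁻¹ = c⁻¹ ∧ LinearMap.det (φ g) = -1))
    (hna : ∃ a ∈ P, ∃ b ∈ P, a * c * a⁻¹ = c ∧ b * c * b⁻¹ = c ∧ a * b ≠ b * a) : FSGood True Y := by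
  have hcY : c ∈ Y := by
    rw [hY]
    exact Subgroup.mem_sup_left (Subgroup.subset_closure rfl)
  have hPY : P ≤ Y := by rw [hY]; exact le_sup_right
  have hact : ∀ g ∈ P, g * c * g⁻¹ = c ∨ g * c * g⁻¹ = c⁻¹ := by
    intro g hg
    rcases hd ⟨g, hg⟩ with h | h
    · exact Or.inl h.1
    · exact Or.inr h.1
  have h := ds_amb hc hc1 hP hact ht hY hcY
  have hcc : c ≠ c⁻¹ := by
    intro h1
    have h3 : c * c = 1 := by
      nth_rewrite 2 [h1]
      exact mul_inv_cancel c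
    have h4 : orderOf c ∣ 2 := orderOf_dvd_of_pow_eq_one (by rw [pow_two, h3])
    rcases (Nat.dvd_prime Nat.prime_two).1 h4 with h5 | h5
    · exact hc1 (orderOf_eq_one_iff.1 h5)
    · rw [h5] at hc
      exact absurd hc (by decide)
  let e : P.subgroupOf Y ≃* P := Subgroup.subgroupOfEquivOfLe hPY
  refine h.good_of_end h2 hV (φ.comp e.toMonoidHom) ?_ ?_ ?_ ?_
  · exact hinj.comp e.injective
  · intro g hg
    have h1 := (mem_cen.1 (Subgroup.mem_subgroupOf.1 hg)).2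
    rcases hd (e g) with h3 | h3
    · exact h3.2
    · exact absurd (h1.symm.trans h3.1) hcc
  · intro g hg
    rcases hd (e g) with h3 | h3
    · exact absurd (Subgroup.mem_subgroupOf.2 (mem_cen.2 ⟨(e g).2, h3.1⟩)) hg
    · exact h3.2
  · obtain ⟨a, ha, b, hb, hac, hbc, hab⟩ := hna
    refine ⟨⟨a, hPY ha⟩, Subgroup.mem_subgroupOf.2 (mem_cen.2 ⟨ha, hac⟩), ⟨b, hPY hb⟩,
      Subgroup.mem_subgroupOf.2 (mem_cen.2 ⟨hb, hbc⟩), fun h1 => hab (congrArg Subtype.val h1)⟩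

/-- **SDL for a maximal 2-subgroup.** `S` a finite group of elements centralising or inverting `c`, `i : SL₂(F) → S`
injective with normal image, `x ∈ S` a 2-element inverting `c`, `P` a maximal 2-subgroup of `S`, `φ : P → End V` faithful
of dimension two, with determinant `1` on elements centralising `c` and `-1` on the others. -/
theorem sdl_max {c : Γ} (hc : Odd (orderOf c)) (hc1 : c ≠ 1) (S P : Subgroup Γ) [Finite S]
    (hPS : P ≤ S) (hP : IsPGroup 2 P) (hmax : ∀ P' : Subgroup Γ, P ≤ P' → P' ≤ S → IsPGroup 2 P' → P' = P)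
    (hS : ∀ g ∈ S, g * c * g⁻¹ = c ∨ g * c * g⁻¹ = c⁻¹)
    {F : Type v} [Field F] [Finite F] (h2 : (2 : F) ≠ 0)
    (i : Matrix.SpecialLinearGroup (Fin 2) F →* Γ) (hi : Function.Injective i)
    (hiS : ∀ x, i x ∈ S) (hic : ∀ x, i x * c * (i x)⁻¹ = c) (hn : ∀ s ∈ S, ∀ x, ∃ y, s * i x * s⁻¹ = i y)
    {x : Γ} (hx : x ∈ S) (hxc : x * c * x⁻¹ = c⁻¹) (hx2 : ∃ k : ℕ, x ^ 2 ^ k = 1)
    {V : Type*} [AddCommGroup V] [Module F V] (hV : Module.finrank F V = 2)
    (φ : P →* (V →ₗ[F] V)) (hinj : Function.Injective φ)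
    (hd : ∀ g : P, ((g : Γ) * c * (g : Γ)⁻¹ = c ∧ LinearMap.det (φ g) = 1) ∨
      ((g : Γ) * c * (g : Γ)⁻¹ = c⁻¹ ∧ LinearMap.det (φ g) = -1))
    {Y : Subgroup Γ} [Finite Y] (hY : Y = Subgroup.closure {c} ⊔ P) : FSGood True Y := by
  obtain ⟨t, ht, htc⟩ := exists_inv_of_max S P hPS hP hmax hS hx hxc hx2
  obtain ⟨a, b, ha, hb, hab⟩ := exists_noncomm_of_max S P hPS hP hmax h2 i hi hiS hn
  exact sdl_amb hc hc1 hP ⟨t, ht, htc⟩ hY h2 hV φ hinj hd ⟨i a, ha, i b, hb, hic a, hic b, hab⟩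

end Cfsg.Agent.H842.FR
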