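import Cfsg.Agent.H842.FR.SdTwo
import Cfsg.Agent.Transfer.PGroupNormal

/-!
# S4970, FR-SDL: 2-subgroups of `SL₂^±(F)`
-/

set_option autoImplicit false

universe u v

namespace Cfsg.Agent.H842.FR

open Cfsg Cfsg.Agent.H955.FS

section mat

variable {F : Type v} [Field F]

theorem ch2 (m : Matrix (Fin 2) (Fin 2) F) : m * m = m.trace • m - m.det • (1 : Matrix (Fin 2) (Fin 2) F) := by
  ext i j
  fin_cases i <;> fin_cases j <;>
    simp [Matrix.mul_apply, Fin.sum_univ_two, Matrix.trace_fin_two, Matrix.det_fin_two] <;> ring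

theorem sq_one (h2 : (2 : F) ≠ 0) {m : Matrix (Fin 2) (Fin 2) F} (hm : m * m = 1) (hd : m.det = 1) :
    m = 1 ∨ m = -1 := by
  have h1 := ch2 m
  rw [hm, hd, one_smul] at h1
  have h3 : m.trace • m = (2 : F) • (1 : Matrix (Fin 2) (Fin 2) F) := by
    rw [two_smul]
    exact (eq_sub_iff_add_eq.1 h1).symm
  have e : ∀ i j, m.trace * m i j = 2 * (1 : Matrix (Fin 2) (Fin 2) F) i j := by
    intro i j
    have := congrFun (congrFun h3 i) j
    simpa using this
  have ht : m.trace ≠ 0 := by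
    intro h0
    have := e 0 0
    rw [h0, zero_mul, Matrix.one_apply_eq, mul_one] at this
    exact h2 this.symm
  have e01 : m 0 1 = 0 := by
    have := e 0 1
    rw [Matrix.one_apply_ne (by decide), mul_zero] at this
    exact (mul_eq_zero.1 this).resolve_left ht
  have e10 : m 1 0 = 0 := by
    have := e 1 0
    rw [Matrix.one_apply_ne (by decide), mul_zero] at this
    exact (mul_eq_zero.1 this).resolve_left ht
  have e11 : m 1 1 = m 0 0 := by
    have h4 := e 0 0
    have h5 := e 1 1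
    rw [Matrix.one_apply_eq] at h4 h5
    exact mul_left_cancel₀ ht (h5.trans h4.symm)
  rw [Matrix.det_fin_two, e01, e10, e11, zero_mul, sub_zero] at hd
  rcases mul_self_eq_one_iff.1 hd with h | h
  · left
    ext i j
    fin_cases i <;> fin_cases j <;> simp [e01, e10, e11, h]
  · right
    ext i j
    fin_cases i <;> fin_cases j <;> simp [e01, e10, e11, h]

theorem trace_zero (h2 : (2 : F) ≠ 0) {U X : Matrix (Fin 2) (Fin 2) F} (hU : U * U = -1)
    (h : X * U = -(U * X)) : X.trace = 0 := by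
  have h1 : (X * U * U).trace = - X.trace := by
    rw [mul_assoc, hU, mul_neg, mul_one, Matrix.trace_neg]
  have h3 : (X * U * U).trace = X.trace := by
    rw [Matrix.trace_mul_comm, h, mul_neg, ← mul_assoc, hU, neg_mul, one_mul, neg_neg]
  rw [h3] at h1
  have h4 : 2 * X.trace = 0 := by linear_combination h1
  exact (mul_eq_zero.1 h4).resolve_left h2

theorem comm_of_comm (h2 : (2 : F) ≠ 0) {U X Y : Matrix (Fin 2) (Fin 2) F} (hU : U * U = -1) (hd : U.det = 1)
    (hX : X * U = U * X) (hY : Y * U = U * Y) : X * Y = Y * X := by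
  have key : ∀ Z : Matrix (Fin 2) (Fin 2) F, Z * U = U * Z →
      Z 0 1 * U 1 0 = U 0 1 * Z 1 0 ∧ (Z 0 0 - Z 1 1) * U 0 1 = Z 0 1 * (U 0 0 - U 1 1) ∧
        (Z 0 0 - Z 1 1) * U 1 0 = Z 1 0 * (U 0 0 - U 1 1) := by
    intro Z hZ
    have e00 := congrFun (congrFun hZ 0) 0
    have e01 := congrFun (congrFun hZ 0) 1
    have e10 := congrFun (congrFun hZ 1) 0
    simp only [Matrix.mul_apply, Fin.sum_univ_two] at e00 e01 e10
    refine ⟨?_, ?_, ?_⟩
    · linear_combination e00
    · linear_combination e01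
    · linear_combination -e10
  obtain ⟨x1, x2, x3⟩ := key X hX
  obtain ⟨y1, y2, y3⟩ := key Y hY
  have hne : U 0 1 ≠ 0 ∨ U 1 0 ≠ 0 ∨ U 0 0 - U 1 1 ≠ 0 := by
    by_contra hcon
    push Not at hcon
    obtain ⟨h3, h4, h5⟩ := hcon
    have e00 := congrFun (congrFun hU 0) 0
    simp only [Matrix.mul_apply, Fin.sum_univ_two, Matrix.neg_apply, Matrix.one_apply_eq] at e00
    rw [Matrix.det_fin_two] at hd
    rw [h3, zero_mul, add_zero] at e00
    rw [h3, zero_mul, sub_zero] at hd
    apply h2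
    linear_combination -hd + e00 - U 0 0 * h5
  have a1 : X 0 1 * Y 1 0 = Y 0 1 * X 1 0 := by
    rcases hne with h | h | h
    · apply mul_left_cancel₀ h
      linear_combination Y 0 1 * x1 - X 0 1 * y1
    · apply mul_left_cancel₀ h
      linear_combination Y 1 0 * x1 - X 1 0 * y1
    · apply mul_left_cancel₀ h
      linear_combination (-Y 1 0) * x2 + Y 0 1 * x3 - (X 0 0 - X 1 1) * y1
  have a2 : (X 0 0 - X 1 1) * Y 0 1 = X 0 1 * (Y 0 0 - Y 1 1) := by
    rcases hne with h | h | h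
    · apply mul_left_cancel₀ h
      linear_combination Y 0 1 * x2 - X 0 1 * y2
    · apply mul_left_cancel₀ h
      linear_combination Y 0 1 * x3 - X 0 1 * y3 - (U 0 0 - U 1 1) * a1
    · apply mul_left_cancel₀ h
      linear_combination (Y 0 0 - Y 1 1) * x2 - (X 0 0 - X 1 1) * y2
  have a3 : (X 0 0 - X 1 1) * Y 1 0 = X 1 0 * (Y 0 0 - Y 1 1) := by
    rcases hne with h | h | h
    · apply mul_left_cancel₀ h
      linear_combination Y 1 0 * x2 - X 1 0 * y2 + (U 0 0 - U 1 1) * a1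
    · apply mul_left_cancel₀ h
      linear_combination Y 1 0 * x3 - X 1 0 * y3
    · apply mul_left_cancel₀ h
      linear_combination (Y 0 0 - Y 1 1) * x3 - (X 0 0 - X 1 1) * y3
  ext i j
  fin_cases i <;> fin_cases j <;> simp [Matrix.mul_apply, Fin.sum_univ_two]
  · linear_combination a1
  · linear_combination a2
  · linear_combination -a3
  · linear_combination -a1

end mat

theorem zp_two {G : Type u} [Group G] {z x : G} (hz : z * z = 1) (hx : x ∈ Subgroup.zpowers z) : x = 1 ∨ x = z := by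
  obtain ⟨k, rfl⟩ := hx
  have h1 : ∀ m : ℤ, z ^ (2 * m) = 1 := by
    intro m
    rw [zpow_mul, zpow_ofNat, pow_two, hz, one_zpow]
  rcases Int.even_or_odd' k with ⟨m, rfl | rfl⟩
  · exact Or.inl (h1 m)
  · right
    show z ^ (2 * m + 1) = z
    rw [zpow_add, h1, one_mul, zpow_one]

/-- **the element `u`**: `Q` a 2-group, `N` a normal subgroup of order greater than two, whose only involution is `z` -/
theorem exists_u {Q : Type u} [Group Q] [Finite Q] (hQ : IsPGroup 2 Q) (N : Subgroup Q) [hN : N.Normal]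
    {z : Q} (hzc : ∀ g, g * z = z * g) (hz2 : z * z = 1)
    (huniq : ∀ x ∈ N, x * x = 1 → x = 1 ∨ x = z) (hbig : ∃ x ∈ N, x ≠ 1 ∧ x ≠ z) :
    ∃ u ∈ N, u * u = z ∧ ∀ g, g * u = u * g ∨ g * u = z * (u * g) := by
  have : Fact (Nat.Prime 2) := ⟨Nat.prime_two⟩
  have hZ : (Subgroup.zpowers z).Normal := by
    constructor
    intro x hx g
    rcases zp_two hz2 hx with rfl | rfl
    · simp
    · rw [hzc, mul_inv_cancel_right]
      exact Subgroup.mem_zpowers _
  set π := QuotientGroup.mk' (Subgroup.zpowers z) with hπ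
  have hNn : (N.map π).Normal := hN.map π (QuotientGroup.mk'_surjective _)
  have hker : ∀ x, π x = 1 ↔ x = 1 ∨ x = z := by
    intro x
    rw [hπ, QuotientGroup.mk'_apply, QuotientGroup.eq_one_iff]
    constructor
    · exact zp_two hz2
    · rintro (rfl | rfl)
      · exact one_mem _
      · exact Subgroup.mem_zpowers _
  have hne : N.map π ≠ ⊥ := by
    intro h0
    obtain ⟨x, hx, hx1, hxz⟩ := hbig
    have h1 : π x ∈ N.map π := Subgroup.mem_map_of_mem _ hx
    rw [h0, Subgroup.mem_bot, hker] at h1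
    rcases h1 with h1 | h1
    · exact hx1 h1
    · exact hxz h1
  obtain ⟨w, hw, hwc, hw2⟩ := Transfer.PGroupNormal.exists_mem_inf_center_orderOf
    (hQ.to_quotient (Subgroup.zpowers z)) (N.map π) hne
  obtain ⟨u, hu, rfl⟩ := hw
  refine ⟨u, hu, ?_, fun g => ?_⟩
  · have h1 : π (u * u) = 1 := by
      rw [map_mul, ← pow_two, ← hw2, pow_orderOf_eq_one]
    rcases (hker _).1 h1 with h2 | h2
    · exfalso
      have h3 := (hker u).2 (huniq u hu h2)
      rw [h3, orderOf_one] at hw2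
      norm_num at hw2
    · exact h2
  · have h1 : π (g * u * (u * g)⁻¹) = 1 := by
      rw [map_mul, map_inv, map_mul, map_mul, Subgroup.mem_center_iff.1 hwc (π g), mul_inv_cancel]
    rcases (hker _).1 h1 with h2 | h2
    · exact Or.inl (mul_inv_eq_one.1 h2)
    · exact Or.inr (mul_inv_eq_iff_eq_mul.1 h2)

namespace DS

variable {K : Type u} [Group K] {c : K} {P P0 : Subgroup K}

/-- **SDL for 2-subgroups of `SL₂^±(F)`**: `φ : P → M₂(F)` faithful, determinant `1` on `P0`, `-1` outside `P0`,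
`P` not commutative and `P0` of order greater than two. -/
theorem good_of_matrix' [Finite K] (h : DS c P P0) {F : Type v} [Field F] (h2 : (2 : F) ≠ 0)
    (φ : P →* Matrix (Fin 2) (Fin 2) F) (hinj : Function.Injective φ)
    (hd0 : ∀ g : P, (g : K) ∈ P0 → (φ g).det = 1) (hd1 : ∀ g : P, (g : K) ∉ P0 → (φ g).det = -1)
    (hna : ∃ a ∈ P, ∃ b ∈ P, a * b ≠ b * a)
    (hbig : ∃ x : P, (x : K) ∈ P0 ∧ φ x ≠ 1 ∧ φ x ≠ -1) : FSGood True K := by
  have : Fact (Nat.Prime 2) := ⟨Nat.prime_two⟩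
  set N : Subgroup P := P0.subgroupOf P with hN
  have hmemN : ∀ x : P, x ∈ N ↔ (x : K) ∈ P0 := fun x => Subgroup.mem_subgroupOf
  have hNn : N.Normal := by
    constructor
    intro x hx g
    rw [hmemN] at hx ⊢
    have := h.conj_P0 (inv_mem g.2) hx
    rwa [inv_inv] at this
  have hφ1 : ∀ x : P, φ x = 1 → x = 1 := fun x hx => hinj (hx.trans (map_one φ).symm)
  have hneg : (-1 : Matrix (Fin 2) (Fin 2) F) ≠ 1 := by
    intro h0
    have := congrFun (congrFun h0 0) 0
    simp only [Matrix.neg_apply, Matrix.one_apply_eq] at this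
    apply h2
    linear_combination -this
  have hne : N ≠ ⊥ := by
    intro h0
    obtain ⟨x, hx, hx1, -⟩ := hbig
    have h1 : x ∈ N := (hmemN x).2 hx
    rw [h0, Subgroup.mem_bot] at h1
    rw [h1, map_one] at hx1
    exact hx1 rfl
  obtain ⟨z, hz, hzc, hz2⟩ := Transfer.PGroupNormal.exists_mem_inf_center_orderOf h.two N hne
  have hzz : z * z = 1 := by rw [← pow_two, ← hz2, pow_orderOf_eq_one]
  have hφz : φ z = -1 := by
    have h1 : φ z * φ z = 1 := by rw [← map_mul, hzz, map_one]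
    rcases sq_one h2 h1 (hd0 z ((hmemN z).1 hz)) with h3 | h3
    · have h4 := hφ1 z h3
      rw [h4, orderOf_one] at hz2
      norm_num at hz2
    · exact h3
  have huniq : ∀ x ∈ N, x * x = 1 → x = 1 ∨ x = z := by
    intro x hx hxx
    have h1 : φ x * φ x = 1 := by rw [← map_mul, hxx, map_one]
    rcases sq_one h2 h1 (hd0 x ((hmemN x).1 hx)) with h3 | h3
    · exact Or.inl (hφ1 x h3)
    · exact Or.inr (hinj (h3.trans hφz.symm))
  obtain ⟨u, hu, huz, huc⟩ := exists_u h.two N (z := z) (fun g => Subgroup.mem_center_iff.1 hzc g) hzz huniq (by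
    obtain ⟨x, hx, hx1, hx2⟩ := hbig
    refine ⟨x, (hmemN x).2 hx, ?_, ?_⟩
    · rintro rfl
      exact hx1 (map_one φ)
    · rintro rfl
      exact hx2 hφz)
  have hU : φ u * φ u = -1 := by rw [← map_mul, huz, hφz]
  have hUd : (φ u).det = 1 := hd0 u ((hmemN u).1 hu)
  -- elements not commuting with `u` have trace zero
  have hsq : ∀ g : P, g * u ≠ u * g → φ g * φ g = -((φ g).det • (1 : Matrix (Fin 2) (Fin 2) F)) := by
    intro g hg
    have h1 : φ g * φ u = -(φ u * φ g) := by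
      rw [← map_mul, (huc g).resolve_left hg, map_mul, hφz, map_mul, neg_one_mul]
    rw [ch2, trace_zero h2 hU h1, zero_smul, zero_sub]
  refine h.good_of_u (u := (u : K)) (z := (z : K)) ((hmemN u).1 hu) (congrArg Subtype.val huz)
    (congrArg Subtype.val hzz) ?_ ?_ ?_ ?_
  · intro g hg
    exact congrArg Subtype.val (Subgroup.mem_center_iff.1 hzc ⟨g, hg⟩)
  · by_contra hcon
    push Not at hcon
    obtain ⟨a, ha, b, hb, hab⟩ := hna
    apply hab
    have h1 : ∀ g (hg : g ∈ P), φ ⟨g, hg⟩ * φ u = φ u * φ ⟨g, hg⟩ := by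
      intro g hg
      rw [← map_mul, ← map_mul]
      congr 1
      exact Subtype.ext (hcon g hg)
    have h3 := comm_of_comm h2 hU hUd (h1 a ha) (h1 b hb)
    rw [← map_mul, ← map_mul] at h3
    exact congrArg Subtype.val (hinj h3)
  · intro g hg0 hg
    have h1 := hsq ⟨g, h.le hg0⟩ fun h3 => hg (congrArg Subtype.val h3)
    rw [hd0 _ hg0, one_smul, ← hφz, ← map_mul] at h1
    exact congrArg Subtype.val (hinj h1)
  · intro g hgP hg0 hg
    have h1 := hsq ⟨g, hgP⟩ fun h3 => hg (congrArg Subtype.val h3)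
    rw [hd1 _ hg0, neg_smul, neg_neg, one_smul, ← map_mul] at h1
    exact congrArg Subtype.val (hφ1 _ h1)

/-- **SDL for 2-subgroups of `SL₂^±(F)`**, `P0` not commutative. -/
theorem good_of_matrix [Finite K] (h : DS c P P0) {F : Type v} [Field F] (h2 : (2 : F) ≠ 0)
    (φ : P →* Matrix (Fin 2) (Fin 2) F) (hinj : Function.Injective φ)
    (hd0 : ∀ g : P, (g : K) ∈ P0 → (φ g).det = 1) (hd1 : ∀ g : P, (g : K) ∉ P0 → (φ g).det = -1)
    (hna : ∃ a ∈ P0, ∃ b ∈ P0, a * b ≠ b * a) : FSGood True K := by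
  obtain ⟨a, ha, b, hb, hab⟩ := hna
  refine h.good_of_matrix' h2 φ hinj hd0 hd1 ⟨a, h.le ha, b, h.le hb, hab⟩ ⟨⟨a, h.le ha⟩, ha, ?_, ?_⟩
  · intro h0
    have : (⟨a, h.le ha⟩ : P) = 1 := hinj (h0.trans (map_one φ).symm)
    have h3 : a = 1 := congrArg Subtype.val this
    rw [h3, one_mul, mul_one] at hab
    exact hab rfl
  · intro h0
    have h3 : φ (⟨a, h.le ha⟩ * ⟨b, h.le hb⟩) = φ (⟨b, h.le hb⟩ * ⟨a, h.le ha⟩) := by
      rw [map_mul, map_mul, h0, neg_one_mul, mul_neg_one]
    exact hab (congrArg Subtype.val (hinj h3))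

/-- **SDL for 2-subgroups of `SL₂^±(V)`**, `V` of dimension two. -/
theorem good_of_end [Finite K] (h : DS c P P0) {F : Type v} [Field F] (h2 : (2 : F) ≠ 0)
    {V : Type*} [AddCommGroup V] [Module F V] (hV : Module.finrank F V = 2)
    (φ : P →* (V →ₗ[F] V)) (hinj : Function.Injective φ)
    (hd0 : ∀ g : P, (g : K) ∈ P0 → LinearMap.det (φ g) = 1)
    (hd1 : ∀ g : P, (g : K) ∉ P0 → LinearMap.det (φ g) = -1)
    (hna : ∃ a ∈ P0, ∃ b ∈ P0, a * b ≠ b * a) : FSGood True K := by
  have : Module.Finite F V := Module.finite_of_finrank_pos (by omega)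
  let b : Module.Basis (Fin 2) F V := Module.finBasisOfFinrankEq F V hV
  refine h.good_of_matrix h2 ((LinearMap.toMatrixAlgEquiv b : (V →ₗ[F] V) →* _).comp φ) ?_ ?_ ?_ hna
  · intro x y hxy
    exact hinj ((LinearMap.toMatrixAlgEquiv b).injective hxy)
  · intro g hg
    rw [← hd0 g hg]
    exact LinearMap.det_toMatrix b (φ g)
  · intro g hg
    rw [← hd1 g hg]
    exact LinearMap.det_toMatrix b (φ g)

end DS

end Cfsg.Agent.H842.FR
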