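import Cfsg.Agent.H842.FR.SdMat

/-!
# S4970, FR-SDL: maximal 2-subgroups
-/

set_option autoImplicit false

universe u v

namespace Cfsg.Agent.H842.FR

open Cfsg Cfsg.Agent.H955.FS

/-- Sylow's theorem for a maximal `p`-subgroup `P` of the subgroup `S`. -/
theorem exists_conj_le {Γ : Type u} [Group Γ] {p : ℕ} [Fact p.Prime] (S P : Subgroup Γ) [Finite S]
    (hPS : P ≤ S) (hP : IsPGroup p P)
    (hmax : ∀ P' : Subgroup Γ, P ≤ P' → P' ≤ S → IsPGroup p P' → P' = P) (Q : Subgroup Γ) (hQS : Q ≤ S)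
    (hQ : IsPGroup p Q) : ∃ s ∈ S, ∀ x ∈ Q, s * x * s⁻¹ ∈ P := by
  let PS : Sylow p S :=
    { toSubgroup := P.subgroupOf S
      isPGroup' := hP.comap_of_injective S.subtype S.subtype_injective
      is_maximal' := by
        intro R hR hle
        have h1 : R.map S.subtype = P := by
          refine hmax _ ?_ (Subgroup.map_subtype_le R) (hR.map _)
          intro x hx
          exact ⟨⟨x, hPS hx⟩, hle (Subgroup.mem_subgroupOf.2 hx), rfl⟩
        rw [← h1]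
        exact (Subgroup.comap_map_eq_self_of_injective S.subtype_injective R).symm }
  obtain ⟨R, hR⟩ := (hQ.comap_of_injective S.subtype S.subtype_injective : IsPGroup p (Q.subgroupOf S)).exists_le_sylow
  obtain ⟨s, hs⟩ := MulAction.exists_smul_eq S R PS
  refine ⟨s, s.2, fun x hx => ?_⟩
  have h1 : (⟨x, hQS hx⟩ : S) ∈ (R : Subgroup S) := hR (Subgroup.mem_subgroupOf.2 hx)
  have h2 : MulAut.conj s • (⟨x, hQS hx⟩ : S) ∈ ((s • R : Sylow p S) : Subgroup S) :=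
    Subgroup.smul_mem_pointwise_smul _ _ _ h1
  rw [hs] at h2
  exact Subgroup.mem_subgroupOf.1 h2

/-- the element `t` -/
theorem exists_inv_of_max {Γ : Type u} [Group Γ] (S P : Subgroup Γ) [Finite S] {c : Γ}
    (hPS : P ≤ S) (hP : IsPGroup 2 P)
    (hmax : ∀ P' : Subgroup Γ, P ≤ P' → P' ≤ S → IsPGroup 2 P' → P' = P)
    (hS : ∀ g ∈ S, g * c * g⁻¹ = c ∨ g * c * g⁻¹ = c⁻¹) {x : Γ} (hx : x ∈ S) (hxc : x * c * x⁻¹ = c⁻¹)
    (hx2 : ∃ k : ℕ, x ^ 2 ^ k = 1) : ∃ t ∈ P, t * c * t⁻¹ = c⁻¹ := by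
  have : Fact (Nat.Prime 2) := ⟨Nat.prime_two⟩
  obtain ⟨s, hs, hsP⟩ := exists_conj_le S P hPS hP hmax (Subgroup.zpowers x) (by
    rw [Subgroup.zpowers_le]
    exact hx) (by
    obtain ⟨k, hk⟩ := hx2
    rintro ⟨y, hy⟩
    obtain ⟨m, rfl⟩ := hy
    refine ⟨k, Subtype.ext ?_⟩
    show (x ^ m) ^ 2 ^ k = 1
    rw [← zpow_natCast, zpow_comm, zpow_natCast, hk, one_zpow])
  refine ⟨s * x * s⁻¹, hsP x (Subgroup.mem_zpowers x), ?_⟩
  rcases hS s⁻¹ (inv_mem hs) with h1 | h1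
  · rw [inv_inv] at h1
    have h2 : s * c * s⁻¹ = c := by
      calc s * c * s⁻¹ = s * (s⁻¹ * c * s) * s⁻¹ := by rw [h1]
        _ = c := by group
    calc s * x * s⁻¹ * c * (s * x * s⁻¹)⁻¹ = s * (x * (s⁻¹ * c * s) * x⁻¹) * s⁻¹ := by group
      _ = s * c⁻¹ * s⁻¹ := by rw [h1, hxc]
      _ = (s * c * s⁻¹)⁻¹ := by group
      _ = c⁻¹ := by rw [h2]
  · rw [inv_inv] at h1
    have h2 : s * c * s⁻¹ = c⁻¹ := by
      have : s⁻¹ * c⁻¹ * s = c := by
        calc s⁻¹ * c⁻¹ * s = (s⁻¹ * c * s)⁻¹ := by group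
          _ = c := by rw [h1, inv_inv]
      calc s * c * s⁻¹ = s * (s⁻¹ * c⁻¹ * s) * s⁻¹ := by rw [this]
        _ = c⁻¹ := by group
    have h3 : x * c⁻¹ * x⁻¹ = c := by
      calc x * c⁻¹ * x⁻¹ = (x * c * x⁻¹)⁻¹ := by group
        _ = c := by rw [hxc, inv_inv]
    calc s * x * s⁻¹ * c * (s * x * s⁻¹)⁻¹ = s * (x * (s⁻¹ * c * s) * x⁻¹) * s⁻¹ := by group
      _ = s * c * s⁻¹ := by rw [h1, h3]
      _ = c⁻¹ := h2

/-- `SL₂(F)`, `F` finite of odd order, contains a quaternion group of order eight. -/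
theorem exists_quat {F : Type v} [Field F] [Finite F] (h2 : (2 : F) ≠ 0) :
    ∃ a b : Matrix.SpecialLinearGroup (Fin 2) F, a * b ≠ b * a ∧
      IsPGroup 2 (Subgroup.zpowers a ⊔ Subgroup.zpowers b : Subgroup _) := by
  obtain ⟨p, hp⟩ := CharP.exists F
  have hp' : Fact p.Prime := ⟨CharP.char_is_prime F p⟩
  obtain ⟨x, y, hxy⟩ := CharP.sq_add_sq F p (-1)
  rw [Int.cast_neg, Int.cast_one] at hxy
  let a : Matrix.SpecialLinearGroup (Fin 2) F := ⟨!![0, 1; -1, 0], by simp [Matrix.det_fin_two]⟩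
  let b : Matrix.SpecialLinearGroup (Fin 2) F := ⟨!![(x : F), y; y, -x], by
    rw [Matrix.det_fin_two]
    simp
    linear_combination -hxy⟩
  have ha : (a : Matrix (Fin 2) (Fin 2) F) = !![0, 1; -1, 0] := rfl
  have hb : (b : Matrix (Fin 2) (Fin 2) F) = !![(x : F), y; y, -x] := rfl
  clear_value a b
  have haa : a * a = -1 := by
    apply Subtype.ext
    rw [Matrix.SpecialLinearGroup.coe_mul, Matrix.SpecialLinearGroup.coe_neg, Matrix.SpecialLinearGroup.coe_one, ha]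
    ext i j
    fin_cases i <;> fin_cases j <;> simp
  have hbb : b * b = -1 := by
    apply Subtype.ext
    rw [Matrix.SpecialLinearGroup.coe_mul, Matrix.SpecialLinearGroup.coe_neg, Matrix.SpecialLinearGroup.coe_one, hb]
    ext i j
    fin_cases i <;> fin_cases j <;> simp <;> first | linear_combination hxy | ring
  have ha4 : a ^ 2 ^ 2 = 1 := by
    rw [show (2 : ℕ) ^ 2 = 2 * 2 from rfl, pow_mul, pow_two a, haa, pow_two, neg_mul_neg, one_mul]
  have hb4 : b ^ 2 ^ 2 = 1 := by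
    rw [show (2 : ℕ) ^ 2 = 2 * 2 from rfl, pow_mul, pow_two b, hbb, pow_two, neg_mul_neg, one_mul]
  have hab : b * a * b⁻¹ = a⁻¹ := by
    have h3 : a * b * a = b := by
      apply Subtype.ext
      rw [Matrix.SpecialLinearGroup.coe_mul, Matrix.SpecialLinearGroup.coe_mul, ha, hb]
      ext i j
      fin_cases i <;> fin_cases j <;> simp
    calc b * a * b⁻¹ = a⁻¹ * (a * b * a) * b⁻¹ := by group
      _ = a⁻¹ := by rw [h3]; group
  have hz : ∀ g : Matrix.SpecialLinearGroup (Fin 2) F, g ^ 2 ^ 2 = 1 → IsPGroup 2 (Subgroup.zpowers g) := by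
    intro g hg
    rintro ⟨w, hw⟩
    obtain ⟨m, rfl⟩ := hw
    refine ⟨2, Subtype.ext ?_⟩
    show (g ^ m) ^ 2 ^ 2 = 1
    rw [← zpow_natCast, zpow_comm, zpow_natCast, hg, one_zpow]
  refine ⟨a, b, ?_, ?_⟩
  · intro h3
    have h4 : a * a = 1 := by
      have h5 : a⁻¹ = a := by rw [← hab, ← h3, mul_inv_cancel_right]
      calc a * a = a * a⁻¹ := by rw [h5]
        _ = 1 := mul_inv_cancel a
    rw [haa] at h4
    have h5 := congrArg (fun m : Matrix.SpecialLinearGroup (Fin 2) F => (m : Matrix (Fin 2) (Fin 2) F) 0 0) h4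
    simp only [Matrix.SpecialLinearGroup.coe_neg, Matrix.SpecialLinearGroup.coe_one, Matrix.neg_apply,
      Matrix.one_apply_eq] at h5
    apply h2
    linear_combination -h5
  · rw [sup_comm]
    refine (hz b hb4).to_sup_of_normal_right' (hz a ha4) ?_
    rw [Subgroup.zpowers_le, Subgroup.mem_normalizer_iff]
    intro w
    constructor
    · rintro ⟨m, rfl⟩
      refine ⟨-m, ?_⟩
      show a ^ (-m) = b * a ^ m * b⁻¹
      rw [← conj_zpow, hab, inv_zpow, zpow_neg]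
    · rintro ⟨m, hm⟩
      refine ⟨-m, ?_⟩
      show a ^ (-m) = w
      have h3 : b * w * b⁻¹ = a ^ m := hm.symm
      have h4 : w = b⁻¹ * a ^ m * b := by rw [← h3]; group
      have h5 : b⁻¹ * a * b = a⁻¹ := by
        calc b⁻¹ * a * b = (b⁻¹ * (b * a * b⁻¹) * b)⁻¹ := by rw [hab]; group
          _ = a⁻¹ := by group
      rw [h4]
      have h6 : b⁻¹ * a ^ m * b = (b⁻¹ * a * b⁻¹⁻¹) ^ m := by rw [conj_zpow, inv_inv]
      rw [h6, inv_inv, h5, inv_zpow, zpow_neg]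

/-- A maximal 2-subgroup `P` of `S` contains two elements of the normal subgroup `SL₂(F)` of `S` which do not commute. -/
theorem exists_noncomm_of_max {Γ : Type u} [Group Γ] (S P : Subgroup Γ) [Finite S]
    (hPS : P ≤ S) (hP : IsPGroup 2 P)
    (hmax : ∀ P' : Subgroup Γ, P ≤ P' → P' ≤ S → IsPGroup 2 P' → P' = P)
    {F : Type v} [Field F] [Finite F] (h2 : (2 : F) ≠ 0) (i : Matrix.SpecialLinearGroup (Fin 2) F →* Γ)
    (hi : Function.Injective i) (hiS : ∀ x, i x ∈ S) (hn : ∀ s ∈ S, ∀ x, ∃ y, s * i x * s⁻¹ = i y) :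
    ∃ x y, i x ∈ P ∧ i y ∈ P ∧ i x * i y ≠ i y * i x := by
  have : Fact (Nat.Prime 2) := ⟨Nat.prime_two⟩
  obtain ⟨a, b, hab, hQ⟩ := exists_quat (F := F) h2
  obtain ⟨s, hs, hsP⟩ := exists_conj_le S P hPS hP hmax
    ((Subgroup.zpowers a ⊔ Subgroup.zpowers b).map i) (by
      rintro _ ⟨x, -, rfl⟩
      exact hiS x) (hQ.map i)
  obtain ⟨x, hx⟩ := hn s hs a
  obtain ⟨y, hy⟩ := hn s hs b
  refine ⟨x, y, ?_, ?_, ?_⟩
  · rw [← hx]
    exact hsP _ (Subgroup.mem_map_of_mem i (Subgroup.mem_sup_left (Subgroup.mem_zpowers a)))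
  · rw [← hy]
    exact hsP _ (Subgroup.mem_map_of_mem i (Subgroup.mem_sup_right (Subgroup.mem_zpowers b)))
  · rw [← hx, ← hy]
    intro h3
    apply hab
    apply hi
    rw [map_mul, map_mul]
    have h4 : s * (i a * i b) * s⁻¹ = s * (i b * i a) * s⁻¹ := by
      calc s * (i a * i b) * s⁻¹ = s * i a * s⁻¹ * (s * i b * s⁻¹) := by group
        _ = s * i b * s⁻¹ * (s * i a * s⁻¹) := h3
        _ = _ := by group
    exact mul_left_cancel (mul_right_cancel h4)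

end Cfsg.Agent.H842.FR
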