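import Cfsg.Agent.H842.FR.Sdl

/-!
# S4970, FR-SDL: the semidihedral situation

`P` has an element `u ∈ P0` with `u² = z` central of order two, and the elements of `P` which do not commute with `u`
have square `z` (inside `P0`) or `1` (outside `P0`).
-/

set_option autoImplicit false

universe u

namespace Cfsg.Agent.H842.FR

open Cfsg Cfsg.Agent.Characters.Core Cfsg.Agent.H955.FS
open scoped ComplexConjugate

/-- A central element of square one acts as a sign. -/
theorem sign_or {Q : Type u} [Group Q] [Finite Q] {z : Q} (hz : ∀ g, g * z = z * g) (hz2 : z * z = 1) {χ : Q → ℂ}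
    (hχ : IsIrrCharacter Q χ) : (∀ g, χ (z * g) = χ g) ∨ ∀ g, χ (z * g) = - χ g := by
  obtain ⟨n, ρ, hρ, rfl⟩ := hχ
  have hcomm : ∀ g, ρ z * ρ g = ρ g * ρ z := by
    intro g
    rw [← map_mul, ← map_mul, hz]
  obtain ⟨a, ha⟩ := Characters.Central.exists_smul_of_comm ρ hρ (ρ z) hcomm
  have hn : (1 : Module.End ℂ (Fin n → ℂ)) ≠ 0 := by
    intro h0
    apply Characters.Central.char_one_ne_zero ρ hρ
    change LinearMap.trace ℂ (Fin n → ℂ) (ρ 1) = 0
    rw [map_one, h0, map_zero]
  have ha2 : a * a = 1 := by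
    have h1 : ρ z * ρ z = 1 := by rw [← map_mul, hz2, map_one]
    rw [ha, smul_mul_smul_comm, one_mul] at h1
    have h2 : (a * a) • (1 : Module.End ℂ (Fin n → ℂ)) = (1 : ℂ) • 1 := by rw [h1, one_smul]
    exact (smul_left_inj hn).1 h2
  have hg : ∀ g, ρ.character (z * g) = a * ρ.character g := by
    intro g
    show LinearMap.trace ℂ _ (ρ (z * g)) = a * LinearMap.trace ℂ _ (ρ g)
    rw [map_mul, ha, smul_mul_assoc, one_mul, map_smul, smul_eq_mul]
  rcases mul_self_eq_one_iff.1 ha2 with h | h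
  · left
    intro g
    rw [hg, h, one_mul]
  · right
    intro g
    rw [hg, h, neg_one_mul]

section two

variable {Q : Type u} [Group Q] [Finite Q]

omit [Finite Q] in
open Classical in
/-- the sum over the elements commuting with `u` vanishes if `u²` acts as `-1` -/
theorem sum_comm_zero [Fintype Q] {u z : Q} (huz : u * u = z) (hz : ∀ g, g * z = z * g) {χ : Q → ℂ}
    (hneg : ∀ g, χ (z * g) = - χ g) : ∑ x : Q, (if x * u = u * x then χ (x * x) else 0) = 0 := by
  have h1 : ∑ x : Q, (if x * u = u * x then χ (x * x) else 0) =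
      - ∑ x : Q, (if x * u = u * x then χ (x * x) else 0) := by
    rw [← Finset.sum_neg_distrib]
    refine (Fintype.sum_equiv (Equiv.mulRight u) _ _ fun x => ?_).symm
    rw [Equiv.coe_mulRight]
    have h2 : (x * u * u = u * (x * u)) ↔ x * u = u * x := by
      constructor
      · intro h
        have : x * u * u = u * x * u := by rw [h, mul_assoc]
        exact mul_right_cancel this
      · intro h
        rw [h, mul_assoc, h]
    by_cases h3 : x * u = u * x
    · rw [if_pos h3, if_pos (h2.2 h3)]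
      have h4 : x * u * (x * u) = z * (x * x) := by
        calc x * u * (x * u) = x * (u * x) * u := by group
          _ = x * (x * u) * u := by rw [h3]
          _ = x * x * (u * u) := by group
          _ = z * (x * x) := by rw [huz, hz]
      rw [h4, hneg]
    · rw [if_neg h3, if_neg fun h => h3 (h2.1 h), neg_zero]
  have h3 := add_eq_zero_iff_eq_neg.2 h1
  rw [← two_mul] at h3
  exact (mul_eq_zero.1 h3).resolve_left two_ne_zero

variable {u z : Q}

/-- `P0`: the characters with indicator one are trivial on `z`. -/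
theorem one_of_fsi {ρ : Q → ℂ} (hρ : IsIrrCharacter Q ρ) (huz : u * u = z) (hz : ∀ g, g * z = z * g)
    (hz2 : z * z = 1) (hs : ∀ g, g * u ≠ u * g → g * g = z) (h1 : fsi ρ = 1) : ρ z = ρ 1 := by
  classical
  have := Fintype.ofFinite Q
  rcases sign_or hz hz2 hρ with h2 | h2
  · have := h2 1
    rwa [mul_one] at this
  · exfalso
    obtain ⟨d, hd0, hd⟩ := isIrr_apply_one hρ
    have hzd : ρ z = -d := by
      have := h2 1
      rwa [mul_one, hd] at this
    rw [fsi_eq_sum] at h1
    have h3 : ∑ s : Q, ρ (s * s) = ∑ s : Q, ((if s * u = u * s then ρ (s * s) else 0) +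
        if s * u = u * s then 0 else (-(d : ℂ))) := by
      refine Finset.sum_congr rfl fun s _ => ?_
      split_ifs with h
      · rw [add_zero]
      · rw [zero_add, hs s h, hzd]
    rw [h3, Finset.sum_add_distrib, sum_comm_zero huz hz h2, zero_add] at h1
    have h4 : ∑ s : Q, (if s * u = u * s then (0 : ℂ) else (-(d : ℂ))) =
        -(((Finset.univ.filter fun s : Q => ¬ s * u = u * s).card * d : ℕ) : ℂ) := by
      rw [Finset.sum_ite, Finset.sum_const_zero, zero_add, Finset.sum_const, nsmul_eq_mul]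
      push_cast
      ring
    rw [h4] at h1
    have h5 : (Nat.card Q : ℂ) ≠ 0 := card_ne_zero_complex
    rw [inv_mul_eq_iff_eq_mul₀ h5, mul_one] at h1
    have h6 : ((Nat.card Q + (Finset.univ.filter fun s : Q => ¬ s * u = u * s).card * d : ℕ) : ℂ) = 0 := by
      rw [Nat.cast_add, ← h1]
      ring
    have h7 : Nat.card Q + (Finset.univ.filter fun s : Q => ¬ s * u = u * s).card * d = 0 := by exact_mod_cast h6
    have := Nat.card_pos (α := Q)
    omega

/-- `P`: if `z` acts as `-1`, the indicator is not `-1`. -/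
theorem ne_neg_of_neg (Q0 : Subgroup Q) (hlt : Q0 ≠ ⊤) {ψ : Q → ℂ} (hψ : IsIrrCharacter Q ψ) (huz : u * u = z)
    (hz : ∀ g, g * z = z * g) (hs0 : ∀ g ∈ Q0, g * u ≠ u * g → g * g = z)
    (hs1 : ∀ g, g ∉ Q0 → g * u ≠ u * g → g * g = 1) (hneg : ∀ g, ψ (z * g) = - ψ g) : fsi ψ ≠ -1 := by
  classical
  have := Fintype.ofFinite Q
  intro h1
  obtain ⟨d, hd0, hd⟩ := isIrr_apply_one hψ
  have hzd : ψ z = -d := by
    have := hneg 1
    rwa [mul_one, hd] at this
  set A : Finset Q := Finset.univ.filter fun s : Q => s ∈ Q0 ∧ ¬ s * u = u * s with hA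
  set B : Finset Q := Finset.univ.filter fun s : Q => s ∉ Q0 ∧ ¬ s * u = u * s with hB
  have hcard : A.card ≤ B.card := by
    by_cases hc : ∃ a, a ∉ Q0 ∧ a * u = u * a
    · obtain ⟨a, ha, hau⟩ := hc
      refine Finset.card_le_card_of_injOn (fun s => a * s) ?_ (fun x _ y _ hxy => mul_left_cancel hxy)
      intro s hs
      rw [Finset.mem_coe, hA, Finset.mem_filter] at hs
      rw [Finset.mem_coe, hB, Finset.mem_filter]
      refine ⟨Finset.mem_univ _, fun h => ha ?_, fun h => hs.2.2 ?_⟩
      · have := mul_mem h (inv_mem hs.2.1)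
        rwa [mul_inv_cancel_right] at this
      · have h2 : a * (s * u) = a * (u * s) := by
          calc a * (s * u) = a * s * u := by group
            _ = u * (a * s) := h
            _ = u * a * s := by group
            _ = a * u * s := by rw [hau]
            _ = _ := by group
        exact mul_left_cancel h2
    · push Not at hc
      obtain ⟨a, ha⟩ : ∃ a, a ∉ Q0 := by
        by_contra hcon
        push Not at hcon
        exact hlt ((Subgroup.eq_top_iff' Q0).2 hcon)
      refine Finset.card_le_card_of_injOn (fun s => a * s) ?_ (fun x _ y _ hxy => mul_left_cancel hxy)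
      intro s hs
      rw [Finset.mem_coe, hA, Finset.mem_filter] at hs
      rw [Finset.mem_coe, hB, Finset.mem_filter]
      have h2 : a * s ∉ Q0 := fun h => ha (by
        have := mul_mem h (inv_mem hs.2.1)
        rwa [mul_inv_cancel_right] at this)
      exact ⟨Finset.mem_univ _, h2, hc _ h2⟩
  rw [fsi_eq_sum] at h1
  have h3 : ∑ s : Q, ψ (s * s) = ∑ s : Q, ((if s * u = u * s then ψ (s * s) else 0) +
      ((if s ∈ Q0 ∧ ¬ s * u = u * s then (-(d : ℂ)) else 0) + if s ∉ Q0 ∧ ¬ s * u = u * s then (d : ℂ) else 0)) := by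
    refine Finset.sum_congr rfl fun s _ => ?_
    by_cases h : s * u = u * s
    · simp [h]
    · by_cases h0 : s ∈ Q0
      · simp [h, h0, hs0 s h0 h, hzd]
      · simp [h, h0, hs1 s h0 h, hd]
  rw [h3, Finset.sum_add_distrib, sum_comm_zero huz hz hneg, zero_add, Finset.sum_add_distrib,
    Finset.sum_ite, Finset.sum_const_zero, add_zero, Finset.sum_const, Finset.sum_ite, Finset.sum_const_zero,
    add_zero, Finset.sum_const, nsmul_eq_mul, nsmul_eq_mul] at h1
  change (Nat.card Q : ℂ)⁻¹ * ((A.card : ℂ) * -(d : ℂ) + (B.card : ℂ) * (d : ℂ)) = -1 at h1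
  have h5 : (Nat.card Q : ℂ) ≠ 0 := card_ne_zero_complex
  rw [inv_mul_eq_iff_eq_mul₀ h5] at h1
  have h6 : ((Nat.card Q + B.card * d : ℕ) : ℂ) = ((A.card * d : ℕ) : ℂ) := by
    push_cast
    linear_combination h1
  have h7 : Nat.card Q + B.card * d = A.card * d := by exact_mod_cast h6
  have h8 : A.card * d ≤ B.card * d := Nat.mul_le_mul_right _ hcard
  have := Nat.card_pos (α := Q)
  omega

/-- `P`: if `z` acts trivially, the indicator is one. -/
theorem one_of_pos {ψ : Q → ℂ} (hψ : IsIrrCharacter Q ψ) (hA : ∃ g, g * u ≠ u * g)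
    (hs : ∀ g, g * u ≠ u * g → g * g = z ∨ g * g = 1) (hpos : ψ z = ψ 1) : fsi ψ = 1 := by
  classical
  have := Fintype.ofFinite Q
  obtain ⟨d, hd0, hd⟩ := isIrr_apply_one hψ
  -- the number of elements commuting with `u` is at most the number of the others
  set A : Finset Q := Finset.univ.filter fun s : Q => s * u = u * s with hAdef
  set B : Finset Q := Finset.univ.filter fun s : Q => ¬ s * u = u * s with hBdef
  have hcard : A.card ≤ B.card := by
    obtain ⟨a, ha⟩ := hA
    refine Finset.card_le_card_of_injOn (fun s => a * s) ?_ (fun x _ y _ hxy => mul_left_cancel hxy)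
    intro s hs'
    rw [Finset.mem_coe, hAdef, Finset.mem_filter] at hs'
    rw [Finset.mem_coe, hBdef, Finset.mem_filter]
    refine ⟨Finset.mem_univ _, fun h => ha ?_⟩
    have h2 : a * u * s = u * a * s := by
      calc a * u * s = a * (u * s) := by group
        _ = a * (s * u) := by rw [hs'.2]
        _ = a * s * u := by group
        _ = u * (a * s) := h
        _ = _ := by group
    exact mul_right_cancel h2
  have h1 : (1 : Q) ∈ A := by
    rw [hAdef, Finset.mem_filter]
    exact ⟨Finset.mem_univ _, by rw [one_mul, mul_one]⟩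
  have hsum : ∑ s : Q, ψ (s * s) = (∑ s ∈ A.erase 1, ψ (s * s)) + d + B.card * d := by
    rw [← Finset.sum_filter_add_sum_filter_not Finset.univ (fun s : Q => s * u = u * s), ← hAdef, ← hBdef]
    congr 1
    · rw [← Finset.sum_erase_add _ _ h1, mul_one, hd]
    · rw [Finset.sum_congr rfl (g := fun _ => (d : ℂ)), Finset.sum_const, nsmul_eq_mul]
      intro s hs'
      rcases hs s (Finset.mem_filter.1 hs').2 with h | h
      · rw [h, hpos, hd]
      · rw [h, hd]
  have hre : -(((A.card - 1 : ℕ) : ℝ) * d) ≤ (∑ s ∈ A.erase 1, ψ (s * s)).re := by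
    have h2 : ‖∑ s ∈ A.erase 1, ψ (s * s)‖ ≤ ((A.card - 1 : ℕ) : ℝ) * d := by
      refine (norm_sum_le _ _).trans ?_
      rw [← Finset.card_erase_of_mem h1, ← nsmul_eq_mul]
      exact Finset.sum_le_card_nsmul _ _ _ fun s _ => Characters.SchurBound.norm_le (isIrr_isCharacter hψ) hd _
    exact (neg_le_neg h2).trans ((neg_le_neg (Complex.abs_re_le_norm _)).trans (neg_abs_le _))
  have hpos' : 0 < (∑ s : Q, ψ (s * s)).re := by
    rw [hsum]
    simp only [Complex.add_re, Complex.natCast_re]
    have h3 : ((B.card : ℂ) * (d : ℂ)).re = (B.card : ℝ) * d := by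
      rw [← Nat.cast_mul, Complex.natCast_re, Nat.cast_mul]
    rw [h3]
    have h4 : ((A.card - 1 : ℕ) : ℝ) * d ≤ (B.card : ℝ) * d := by
      apply mul_le_mul_of_nonneg_right _ (Nat.cast_nonneg _)
      exact_mod_cast (Nat.sub_le _ _).trans hcard
    have h5 : (0 : ℝ) < d := by exact_mod_cast hd0
    linarith
  have hc : 0 < (Nat.card Q : ℝ) := by exact_mod_cast Nat.card_pos
  have h2 : ∑ s : Q, ψ (s * s) = Nat.card Q * fsi ψ := by
    rw [fsi_eq_sum, ← mul_assoc, mul_inv_cancel₀ card_ne_zero_complex, one_mul]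
  rcases fsi_cases hψ with h3 | h3 | h3
  · rw [h2, h3, mul_zero] at hpos'
    simp at hpos'
  · exact h3
  · rw [h2, h3] at hpos'
    simp at hpos'
    exfalso
    have : (0 : ℝ) ≤ Nat.card Q := Nat.cast_nonneg _
    linarith

end two

namespace DS

variable {K : Type u} [Group K] {c : K} {P P0 : Subgroup K}

/-- the characters of `P` -/
theorem good_P [Finite K] (h : DS c P P0) {u z : K} (hu : u ∈ P0) (huz : u * u = z) (hz2 : z * z = 1)
    (hzc : ∀ g ∈ P, g * z = z * g) (hA : ∃ g ∈ P, g * u ≠ u * g)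
    (hs0 : ∀ g ∈ P0, g * u ≠ u * g → g * g = z) (hs1 : ∀ g ∈ P, g ∉ P0 → g * u ≠ u * g → g * g = 1) :
    FSGood True P := by
  have hz : z ∈ P0 := by
    rw [← huz]
    exact mul_mem hu hu
  set u' : P := ⟨u, h.le hu⟩ with hu'
  set z' : P := ⟨z, h.le hz⟩ with hz'
  have hzc' : ∀ g : P, g * z' = z' * g := fun g => Subtype.ext (hzc g g.2)
  have hz2' : z' * z' = 1 := Subtype.ext hz2
  have huz' : u' * u' = z' := Subtype.ext huz
  have hne : ∀ g : P, g * u' ≠ u' * g → (g : K) * u ≠ u * g := fun g hg hg' => hg (Subtype.ext hg')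
  refine good_of_core fun ψ hψ => ?_
  rcases sign_or hzc' hz2' hψ with h1 | h1
  · have h2 : ψ z' = ψ 1 := by
      have := h1 1
      rwa [mul_one] at this
    obtain ⟨g, hg, hgu⟩ := hA
    rw [one_of_pos (u := u') (z := z') hψ ⟨⟨g, hg⟩, fun h3 => hgu (congrArg Subtype.val h3)⟩ ?_ h2]
    · norm_num
    · intro g hg
      by_cases h0 : (g : K) ∈ P0
      · exact Or.inl (Subtype.ext (hs0 g h0 (hne g hg)))
      · exact Or.inr (Subtype.ext (hs1 g g.2 h0 (hne g hg)))
  · refine ne_neg_of_neg (u := u') (z := z') (P0.subgroupOf P) ?_ hψ huz' hzc' ?_ ?_ h1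
    · intro htop
      obtain ⟨t, ht, ht0⟩ := h.lt
      apply ht0
      have : (⟨t, ht⟩ : P) ∈ P0.subgroupOf P := by
        rw [htop]
        trivial
      exact Subgroup.mem_subgroupOf.1 this
    · intro g hg0 hg
      exact Subtype.ext (hs0 g (Subgroup.mem_subgroupOf.1 hg0) (hne g hg))
    · intro g hg0 hg
      exact Subtype.ext (hs1 g g.2 (fun h0 => hg0 (Subgroup.mem_subgroupOf.2 h0)) (hne g hg))

/-- **SDL in the semidihedral situation.** -/
theorem good_of_u [Finite K] (h : DS c P P0) {u z : K} (hu : u ∈ P0) (huz : u * u = z) (hz2 : z * z = 1)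
    (hzc : ∀ g ∈ P, g * z = z * g) (hA : ∃ g ∈ P, g * u ≠ u * g)
    (hs0 : ∀ g ∈ P0, g * u ≠ u * g → g * g = z) (hs1 : ∀ g ∈ P, g ∉ P0 → g * u ≠ u * g → g * g = 1) :
    FSGood True K := by
  have hz : z ∈ P0 := by
    rw [← huz]
    exact mul_mem hu hu
  refine h.good_of_z (h.good_P hu huz hz2 hzc hA hs0 hs1) hz hzc ?_ ?_
  · intro ρ hρ hρ1
    refine one_of_fsi (u := (⟨u, hu⟩ : P0)) (z := (⟨z, hz⟩ : P0)) hρ (Subtype.ext huz)
      (fun g => Subtype.ext (hzc g (h.le g.2))) (Subtype.ext hz2) ?_ hρ1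
    intro g hg
    exact Subtype.ext (hs0 g g.2 fun hg' => hg (Subtype.ext hg'))
  · intro ψ hψ h2
    obtain ⟨g, hg, hgu⟩ := hA
    rw [one_of_pos (u := (⟨u, h.le hu⟩ : P)) (z := (⟨z, h.le hz⟩ : P)) hψ
      ⟨⟨g, hg⟩, fun h3 => hgu (congrArg Subtype.val h3)⟩ ?_ h2]
    · exact one_ne_zero
    · intro g hg
      by_cases h0 : (g : K) ∈ P0
      · exact Or.inl (Subtype.ext (hs0 g h0 fun hg' => hg (Subtype.ext hg')))
      · exact Or.inr (Subtype.ext (hs1 g g.2 h0 fun hg' => hg (Subtype.ext hg')))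

end DS

end Cfsg.Agent.H842.FR
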