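import Cfsg.Agent.H842.FR.DihChar
import Cfsg.Agent.H721.FR.Base
import Cfsg.Agent.Characters.SchurBound

/-!
# S4970, FR-SDL: indicators of `⟨c⟩ P`
-/

set_option autoImplicit false

universe u

namespace Cfsg.Agent.H842.FR

open Cfsg Cfsg.Agent.Characters.Core Cfsg.Agent.H955.FS
open scoped ComplexConjugate

/-! ### General lemmas -/

theorem fsi_add {G : Type u} [Group G] [Finite G] (α β : G → ℂ) : fsi (α + β) = fsi α + fsi β := by
  have := Fintype.ofFinite G
  rw [fsi_eq_sum, fsi_eq_sum, fsi_eq_sum, ← mul_add, ← Finset.sum_add_distrib]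
  rfl

/-- Indicators of characters of a group without indicators `-1`. -/
theorem fsi_char {G : Type u} [Group G] [Finite G] [Fintype G] (hG : FSGood True G) :
    ∀ (n : ℕ) {α : G → ℂ}, IsCharacter G α → α 1 = n → ∃ m : ℕ, fsi α = m ∧
      (m = 0 → ∀ ψ : G → ℂ, IsIrrCharacter G ψ → classInner α ψ ≠ 0 → fsi ψ = 0) := by
  intro n
  induction n using Nat.strong_induction_on with
  | _ n ih =>
    intro α hα hn
    by_cases h0 : α = 0
    · refine ⟨0, ?_, fun _ ψ _ h => ?_⟩
      · rw [h0, fsi_eq_sum]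
        simp
      · rw [h0, classInner_zero_left] at h
        exact absurd rfl h
    · obtain ⟨ψ, hψ, hne⟩ := H668.CharPeel.exists_constituent hα h0
      have h1 := H668.CharPeel.isCharacter_sub hα hψ hne
      obtain ⟨k, hk⟩ := isCharacter_apply_one h1
      obtain ⟨d, hd0, hd⟩ := isIrr_apply_one hψ
      have h2 : n = k + d := by
        have : ((k + d : ℕ) : ℂ) = (n : ℕ) := by
          push_cast
          rw [← hk, ← hd, ← hn, Pi.sub_apply]
          ring
        exact_mod_cast this.symm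
      obtain ⟨m, hm, hm0⟩ := ih k (by omega) h1 hk
      have h3 : α = (α - ψ) + ψ := by ring
      have h4 : fsi α = m + fsi ψ := by
        conv_lhs => rw [h3]
        rw [fsi_add, hm]
      have h5 : ∀ m', m' = 0 → m' = m + 0 → fsi ψ = 0 → ∀ η : G → ℂ, IsIrrCharacter G η →
          classInner α η ≠ 0 → fsi η = 0 := by
        intro m' h6 h7 h8 η hη hne'
        by_cases h9 : η = ψ
        · rw [h9, h8]
        · refine hm0 (by omega) η hη ?_
          rw [classInner_sub_left, classInner_irr_ne hψ hη (Ne.symm h9), sub_zero]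
          exact hne'
      rcases hG ψ hψ with h6 | ⟨-, h6⟩
      · refine ⟨m + 1, ?_, fun h => absurd h (by omega)⟩
        rw [h4, h6]
        push_cast
        ring
      · refine ⟨m, ?_, fun h => h5 m h (by omega) h6⟩
        rw [h4, h6, add_zero]

/-- constituents of a character inherit kernels -/
theorem apply_eq_of_constituent {G : Type u} [Group G] [Fintype G] {α ψ : G → ℂ} (hα : IsCharacter G α)
    (hψ : IsIrrCharacter G ψ) (hne : classInner α ψ ≠ 0) {z : G} (hz : α z = α 1) : ψ z = ψ 1 := by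
  have h1 := H668.CharPeel.isCharacter_sub hα hψ hne
  obtain ⟨k, hk⟩ := isCharacter_apply_one h1
  obtain ⟨d, hd0, hd⟩ := isIrr_apply_one hψ
  have h2 := Characters.SchurBound.norm_le h1 hk z
  have h3 := Characters.SchurBound.norm_le (isIrr_isCharacter hψ) hd z
  have h4 : ψ z + (α - ψ) z = d + k := by
    rw [← hk, ← hd, Pi.sub_apply, Pi.sub_apply, hz]
    ring
  have h5 : (ψ z).re ≤ d := (Complex.re_le_norm _).trans h3
  have h6 : ((α - ψ) z).re ≤ k := (Complex.re_le_norm _).trans h2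
  have h7 : (ψ z).re + ((α - ψ) z).re = d + k := by
    have := congrArg Complex.re h4
    simpa using this
  have h8 : (ψ z).re = d := by linarith
  have h9 : (ψ z).im = 0 := by
    have h10 : ‖ψ z‖ ^ 2 = (ψ z).re ^ 2 + (ψ z).im ^ 2 := by
      rw [Complex.sq_norm, Complex.normSq_apply]
      ring
    have h11 : ‖ψ z‖ ^ 2 ≤ (d : ℝ) ^ 2 := pow_le_pow_left₀ (norm_nonneg _) h3 2
    rw [h10, h8] at h11
    have h12 : (ψ z).im ^ 2 ≤ 0 := by linarith
    exact pow_eq_zero_iff (two_ne_zero) |>.1 (le_antisymm h12 (sq_nonneg _))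
  rw [hd]
  apply Complex.ext
  · rw [h8]
    simp
  · rw [h9]
    simp

namespace DS

variable {K : Type u} [Group K] {c : K} {P P0 : Subgroup K}

theorem sq_bij [Finite K] (h : DS c P P0) : Function.Bijective (fun a : Subgroup.zpowers c => a * a) := by
  rw [← Finite.surjective_iff_bijective]
  intro a
  obtain ⟨b, hb, hba⟩ := h.sqrt a.2
  exact ⟨⟨b, hb⟩, Subtype.ext hba⟩

/-- **the indicator formula** -/
theorem fsi_eq [Finite K] (h : DS c P P0) [Fintype (Subgroup.zpowers c)] {χ : K → ℂ}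
    (h0 : ∀ k, ∑ a : Subgroup.zpowers c, χ (a * k) = 0) {t : K} (ht : t ∈ P)
    {ρ : P0 → ℂ} (hr : ∀ y : P0, χ y = ρ y + ρ ⟨t⁻¹ * y * t, h.conj_P0 ht y.2⟩) :
    fsi χ = fsi (fun y : P => χ y) - fsi ρ := by
  classical
  have := Fintype.ofFinite K
  have := Fintype.ofFinite P
  have := Fintype.ofFinite P0
  rw [fsi_eq_sum, fsi_eq_sum, fsi_eq_sum]
  -- the sum over `K`
  have h1 : ∑ s : K, χ (s * s) = Nat.card (Subgroup.zpowers c) * ∑ y : P, if (y : K) ∈ P0 then 0 else χ (y * y) := by
    rw [h.sum_K, Finset.sum_comm, Finset.mul_sum]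
    refine Finset.sum_congr rfl fun y _ => ?_
    split_ifs with hy
    · rw [mul_zero, ← h0 (y * y)]
      refine Fintype.sum_bijective _ h.sq_bij _ _ fun a => ?_
      congr 1
      show (a : K) * y * (a * y) = a * a * (y * y)
      have h2 : (y : K) * a = a * y := mul_inv_eq_iff_eq_mul.1 (h.comm hy a.2)
      calc (a : K) * y * (a * y) = a * (y * a) * y := by group
        _ = a * (a * y) * y := by rw [h2]
        _ = _ := by group
    · have h3 : ∀ a : Subgroup.zpowers c, χ (a * y * (a * y)) = χ (y * y) := by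
        intro a
        congr 1
        have h2 := h.inv y.2 hy a.2
        calc (a : K) * y * (a * y) = a * ((y : K) * a * (y : K)⁻¹) * (y * y) := by group
          _ = y * y := by rw [h2, mul_inv_cancel, one_mul]
      rw [Finset.sum_congr rfl fun a _ => h3 a, Finset.sum_const, nsmul_eq_mul, Finset.card_univ,
        Nat.card_eq_fintype_card]
  -- the sum over `P`
  have h2 : ∑ y : P0, χ (y * y) = 2 * ∑ y : P0, ρ (y * y) := by
    have h3 : ∀ y : P0, χ (y * y) = ρ (y * y) + ρ (⟨t⁻¹ * y * t, h.conj_P0 ht y.2⟩ * ⟨t⁻¹ * y * t, h.conj_P0 ht y.2⟩) := by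
      intro y
      rw [show (y : K) * y = ((y * y : P0) : K) from rfl, hr (y * y)]
      congr 2
      ext
      show t⁻¹ * (y * y) * t = (t⁻¹ * y * t) * (t⁻¹ * y * t)
      group
    rw [Finset.sum_congr rfl fun y _ => h3 y, Finset.sum_add_distrib, two_mul]
    congr 1
    have hb : Function.Bijective (fun y : P0 => (⟨t⁻¹ * y * t, h.conj_P0 ht y.2⟩ : P0)) := by
      rw [← Finite.injective_iff_bijective]
      intro y z hyz
      have h4 : t⁻¹ * (y : K) * t = t⁻¹ * z * t := congrArg Subtype.val hyz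
      exact Subtype.ext (mul_left_cancel (mul_right_cancel h4))
    exact Fintype.sum_bijective _ hb _ _ fun y => rfl
  have h3 : ∑ y : P, χ (((y * y : P)) : K) = 2 * ∑ y : P0, ρ (y * y) + ∑ y : P, if (y : K) ∈ P0 then 0 else χ (y * y) := by
    rw [← h2]
    exact h.sum_P (fun y => χ (y * y))
  rw [h1, h3, h.card_K, h.card_P]
  have hC : (Nat.card (Subgroup.zpowers c) : ℂ) ≠ 0 := by exact_mod_cast Nat.card_pos.ne'
  have hP : (Nat.card P0 : ℂ) ≠ 0 := by exact_mod_cast Nat.card_pos.ne'
  push_cast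
  field_simp
  ring

/-- the restriction to `P` of a character trivial on `c` -/
theorem triv [Finite K] (h : DS c P P0) {χ : K → ℂ} (hχ : IsIrrCharacter K χ)
    (h0 : ∀ a ∈ Subgroup.zpowers c, ∀ k, χ (a * k) = χ k) :
    IsIrrCharacter P (fun y => χ y) ∧ fsi χ = fsi (fun y : P => χ y) := by
  classical
  have := Fintype.ofFinite K
  have := Fintype.ofFinite P
  have := Fintype.ofFinite P0
  have := Fintype.ofFinite (Subgroup.zpowers c)
  have hC : (Nat.card (Subgroup.zpowers c) : ℂ) ≠ 0 := by exact_mod_cast Nat.card_pos.ne'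
  have hP : (Nat.card P : ℂ) ≠ 0 := by exact_mod_cast Nat.card_pos.ne'
  constructor
  · refine (isIrr_iff_classInner_self (isCharacter_comp P.subtype (isIrr_isCharacter hχ))).2 ?_
    have h1 := classInner_irr_self hχ
    rw [classInner_def, h.sum_K] at h1
    have h2 : ∀ a : Subgroup.zpowers c, ∑ y : P, χ (a * y) * conj (χ (a * y)) =
        ∑ y : P, χ y * conj (χ y) := by
      intro a
      exact Finset.sum_congr rfl fun y _ => by rw [h0 a a.2]
    rw [Finset.sum_congr rfl (fun a _ => h2 a), Finset.sum_const, nsmul_eq_mul, Finset.card_univ,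
      ← Nat.card_eq_fintype_card, h.card_K] at h1
    push_cast at h1
    rw [classInner_def, ← h1]
    show (Nat.card P : ℂ)⁻¹ * ∑ y : P, χ y * conj (χ y) = _
    field_simp
  · rw [fsi_eq_sum, fsi_eq_sum, h.sum_K]
    have h2 : ∀ a : Subgroup.zpowers c, ∑ y : P, χ (a * y * (a * y)) = ∑ y : P, χ (((y * y : P)) : K) := by
      intro a
      refine Finset.sum_congr rfl fun y _ => ?_
      have h3 : (a : K) * y * (a * y) = a * ((y : K) * a * (y : K)⁻¹) * (y * y) := by group
      rw [h3, h0 _ (mul_mem a.2 (h.conj_mem y.2 a.2))]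
      rfl
    rw [Finset.sum_congr rfl (fun a _ => h2 a), Finset.sum_const, nsmul_eq_mul, Finset.card_univ,
      ← Nat.card_eq_fintype_card, h.card_K]
    push_cast
    field_simp

/-- **The core**: a character with indicator `-1`. -/
theorem core [Finite K] [Fintype P] (h : DS c P P0) (hP : FSGood True P) {t : K} (ht : t ∈ P) (ht0 : t ∉ P0)
    {χ : K → ℂ} (hχ : IsIrrCharacter K χ) (hneg : fsi χ = -1) :
    ∃ ρ : P0 → ℂ, IsIrrCharacter P0 ρ ∧ fsi ρ = 1 ∧
      (∀ y : P0, χ y = ρ y + ρ ⟨t⁻¹ * y * t, h.conj_P0 ht y.2⟩) ∧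
      (∀ y ∈ P, y ∉ P0 → χ y = 0) ∧
      ∀ ψ : P → ℂ, IsIrrCharacter P ψ → classInner (fun y : P => χ y) ψ ≠ 0 → fsi ψ = 0 := by
  classical
  have := h.normal
  have := Fintype.ofFinite (Subgroup.zpowers c)
  rcases coset_or (Subgroup.zpowers c) hχ with h0 | h0
  · obtain ⟨ρ, hρ, hr⟩ := h.exists_rho hχ h0 ht ht0
    have h1 := h.fsi_eq h0 ht hr
    have hch : IsCharacter P (fun y => χ y) := isCharacter_comp P.subtype (isIrr_isCharacter hχ)
    obtain ⟨n, hn⟩ := isCharacter_apply_one hch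
    obtain ⟨m, hm, hm0⟩ := fsi_char hP n hch hn
    rw [hneg, hm] at h1
    have hm1 : m = 0 ∧ fsi ρ = 1 := by
      rcases fsi_cases hρ with h2 | h2 | h2
      · exfalso
        rw [h2, sub_zero] at h1
        have h3 : ((m + 1 : ℕ) : ℂ) = 0 := by
          push_cast
          rw [← h1]
          ring
        have h4 : m + 1 = 0 := by exact_mod_cast h3
        omega
      · refine ⟨?_, h2⟩
        rw [h2] at h1
        have h3 : (m : ℂ) = 0 := by linear_combination -h1
        exact_mod_cast h3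
      · exfalso
        rw [h2] at h1
        have h3 : ((m + 2 : ℕ) : ℂ) = 0 := by
          push_cast
          linear_combination -h1
        have h4 : m + 2 = 0 := by exact_mod_cast h3
        omega
    refine ⟨ρ, hρ, hm1.2, hr, fun y hy hy0 => ?_, hm0 hm1.1⟩
    have := h.vanish hχ h0 (one_mem _) hy hy0
    rwa [one_mul] at this
  · exfalso
    obtain ⟨h1, h2⟩ := h.triv hχ h0
    rcases hP _ h1 with h3 | ⟨-, h3⟩
    · rw [h2, h3] at hneg
      norm_num at hneg
    · rw [h2, h3] at hneg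
      norm_num at hneg

theorem good_of_core [Finite K] (H : ∀ χ : K → ℂ, IsIrrCharacter K χ → fsi χ ≠ -1) : FSGood True K := by
  intro χ hχ
  rcases fsi_cases hχ with h1 | h1 | h1
  · exact Or.inr ⟨trivial, h1⟩
  · exact Or.inl h1
  · exact absurd h1 (H χ hχ)

/-- **SDL, version with a central element**: the characters of `P0` with indicator one are trivial on `z`, and the
characters of `P` trivial on `z` are real-valued. -/
theorem good_of_z [Finite K] (h : DS c P P0) (hP : FSGood True P) {z : K} (hz : z ∈ P0)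
    (hzc : ∀ g ∈ P, g * z = z * g)
    (h1 : ∀ ρ : P0 → ℂ, IsIrrCharacter P0 ρ → fsi ρ = 1 → ρ ⟨z, hz⟩ = ρ 1)
    (h2 : ∀ ψ : P → ℂ, IsIrrCharacter P ψ → ψ ⟨z, h.le hz⟩ = ψ 1 → fsi ψ ≠ 0) : FSGood True K := by
  classical
  have := Fintype.ofFinite P
  refine good_of_core fun χ hχ hneg => ?_
  obtain ⟨t, ht, ht0⟩ := h.lt
  obtain ⟨ρ, hρ, hρ1, hr, -, hc⟩ := h.core hP ht ht0 hχ hneg
  have hch : IsCharacter P (fun y => χ y) := isCharacter_comp P.subtype (isIrr_isCharacter hχ)
  have hne : (fun y : P => χ y) ≠ 0 := by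
    intro h3
    exact isIrr_apply_one_ne_zero hχ (congrFun h3 1)
  obtain ⟨ψ, hψ, hψne⟩ := H668.CharPeel.exists_constituent hch hne
  refine h2 ψ hψ ?_ (hc ψ hψ hψne)
  apply apply_eq_of_constituent hch hψ hψne
  show χ z = χ 1
  have h3 := hr ⟨z, hz⟩
  have h4 := hr 1
  have h5 : (⟨t⁻¹ * z * t, h.conj_P0 ht hz⟩ : P0) = ⟨z, hz⟩ := by
    ext
    show t⁻¹ * z * t = z
    rw [mul_assoc, ← hzc t ht, inv_mul_cancel_left]
  have h6 : (⟨t⁻¹ * ((1 : P0) : K) * t, h.conj_P0 ht (1 : P0).2⟩ : P0) = 1 := by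
    ext
    show t⁻¹ * 1 * t = 1
    group
  change χ z = ρ ⟨z, hz⟩ + ρ ⟨t⁻¹ * z * t, _⟩ at h3
  rw [h5, h1 ρ hρ hρ1] at h3
  rw [h6] at h4
  rw [h3]
  exact h4.symm

/-- **SDL**: the real characters of `P0` of indicator one which extend to `P` have a real-valued extension. -/
theorem good_of_ext [Finite K] (h : DS c P P0) (hP : FSGood True P)
    (hE : ∀ ρ : P0 → ℂ, IsIrrCharacter P0 ρ → (∀ y, (ρ y).im = 0) → fsi ρ = 1 →
      (∃ ψ : P → ℂ, IsIrrCharacter P ψ ∧ ∀ y : P0, ψ ⟨y, h.le y.2⟩ = ρ y) →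
      ∃ ψ : P → ℂ, IsIrrCharacter P ψ ∧ (∀ y, (ψ y).im = 0) ∧ ∀ y : P0, ψ ⟨y, h.le y.2⟩ = ρ y) :
    FSGood True K := by
  classical
  have := Fintype.ofFinite P
  have := Fintype.ofFinite P0
  have := Fintype.ofFinite (Subgroup.zpowers c)
  refine good_of_core fun χ hχ hneg => ?_
  obtain ⟨t, ht, ht0⟩ := h.lt
  obtain ⟨ρ, hρ, hρ1, hr, hv, hc⟩ := h.core hP ht ht0 hχ hneg
  have hch : IsCharacter P (fun y => χ y) := isCharacter_comp P.subtype (isIrr_isCharacter hχ)
  have hreal : ∀ g, (χ g).im = 0 := real_of_fsi_ne_zero hχ (by rw [hneg]; norm_num)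
  have hcP : (Nat.card P : ℂ) = 2 * Nat.card P0 := by rw [h.card_P]; push_cast; ring
  have hP0 : (Nat.card P0 : ℂ) ≠ 0 := by exact_mod_cast Nat.card_pos.ne'
  -- inner products with the restriction to `P`
  have hinner : ∀ η : P → ℂ, classInner (fun y : P => χ y) η =
      (2 : ℂ)⁻¹ * classInner (fun y : P0 => χ y) (fun y : P0 => η ⟨y, h.le y.2⟩) := by
    intro η
    rw [classInner_def, classInner_def, hcP]
    have h1 := h.sum_P (fun y => if hy : y ∈ P then χ y * conj (η ⟨y, hy⟩) else 0)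
    have h2 : ∑ y : P, χ y * conj (η y) = ∑ y : P0, χ y * conj (η ⟨y, h.le y.2⟩) := by
      have h3 : ∀ y : P, χ y * conj (η y) = if hy : (y : K) ∈ P then χ y * conj (η ⟨y, hy⟩) else 0 := by
        intro y
        rw [dif_pos y.2]
      rw [Finset.sum_congr rfl fun y _ => h3 y, h1]
      have h4 : ∑ y : P, (if (y : K) ∈ P0 then 0 else
          if hy : (y : K) ∈ P then χ y * conj (η ⟨y, hy⟩) else 0) = 0 := by
        refine Finset.sum_eq_zero fun y _ => ?_
        split_ifs with h5 h6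
        · rfl
        · rw [hv y y.2 h5, zero_mul]
        · rfl
      rw [h4, add_zero]
      refine Finset.sum_congr rfl fun y _ => ?_
      rw [dif_pos (h.le y.2)]
    rw [h2, mul_inv, mul_assoc]
  -- the conjugate of `ρ`
  set ρ' : P0 → ℂ := fun y => ρ ⟨t⁻¹ * y * t, h.conj_P0 ht y.2⟩ with hρ'
  have hρ'irr : IsIrrCharacter P0 ρ' := by
    have hb : Function.Surjective (fun y : P0 => (⟨t⁻¹ * y * t, h.conj_P0 ht y.2⟩ : P0)) := by
      rw [← Finite.injective_iff_surjective]
      intro y z hyz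
      have h4 : t⁻¹ * (y : K) * t = t⁻¹ * z * t := congrArg Subtype.val hyz
      exact Subtype.ext (mul_left_cancel (mul_right_cancel h4))
    refine isIrr_comp (MonoidHom.mk' (fun y : P0 => (⟨t⁻¹ * y * t, h.conj_P0 ht y.2⟩ : P0)) ?_) hb hρ
    intro y z
    ext
    show t⁻¹ * (y * z) * t = (t⁻¹ * y * t) * (t⁻¹ * z * t)
    group
  have hres : (fun y : P0 => χ y) = ρ + ρ' := by
    funext y
    exact hr y
  by_cases heq : ρ' = ρ
  · -- `ρ` invariant
    have hnorm : classInner (fun y : P => χ y) (fun y : P => χ y) = 2 := by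
      rw [hinner]
      change (2 : ℂ)⁻¹ * classInner (fun y : P0 => χ y) (fun y : P0 => χ y) = 2
      rw [hres, heq, classInner_add_left, classInner_add_right, classInner_irr_self hρ]
      norm_num
    obtain ⟨ψ₁, ψ₂, h1, h2, hne, hs⟩ := H113.NormTwoChar.exists_add_of_norm_two hch hnorm
    have hone : ∀ ψ, IsIrrCharacter P ψ → classInner (fun y : P => χ y) ψ = 1 →
        IsCharacter P0 ((fun y : P0 => ψ ⟨y, h.le y.2⟩) - ρ) := by
      intro ψ hψ h3
      have h4 : IsCharacter P0 (fun y : P0 => ψ ⟨y, h.le y.2⟩) :=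
        isCharacter_comp (Subgroup.inclusion h.le) (isIrr_isCharacter hψ)
      apply H668.CharPeel.isCharacter_sub h4 hρ
      rw [H668.CharPeel.ip_comm_real h4 (isIrr_isCharacter hρ)]
      rw [hinner, hres, heq, classInner_add_left] at h3
      intro h5
      rw [h5] at h3
      norm_num at h3
    have h3 : classInner (fun y : P => χ y) ψ₁ = 1 := by
      rw [hs, classInner_add_left, classInner_irr_self h1, classInner_irr_ne h2 h1 hne.symm, add_zero]
    have h4 : classInner (fun y : P => χ y) ψ₂ = 1 := by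
      rw [hs, classInner_add_left, classInner_irr_self h2, classInner_irr_ne h1 h2 hne, zero_add]
    have h5 := hone ψ₁ h1 h3
    have h6 := hone ψ₂ h2 h4
    obtain ⟨k, hk⟩ := isCharacter_apply_one h5
    obtain ⟨l, hl⟩ := isCharacter_apply_one h6
    have h7 : k = 0 := by
      have h8 := congrFun hs 1
      have h9 := congrFun hres 1
      rw [heq] at h9
      rw [Pi.sub_apply] at hk hl
      rw [Pi.add_apply] at h8 h9
      have h10 : ((k + l : ℕ) : ℂ) = 0 := by
        push_cast
        rw [← hk, ← hl]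
        have h11 : χ ((1 : P) : K) = χ ((1 : P0) : K) := rfl
        have h12 : (⟨((1 : P0) : K), h.le (1 : P0).2⟩ : P) = 1 := rfl
        rw [h12]
        rw [h11, h9] at h8
        linear_combination -h8
      have h11 : k + l = 0 := by exact_mod_cast h10
      omega
    have h8 : (fun y : P0 => ψ₁ ⟨y, h.le y.2⟩) - ρ = 0 := by
      apply H668.CharPeel.eq_zero_of_apply_one h5
      rw [hk, h7, Nat.cast_zero]
    obtain ⟨ψ, hψ, hψr, hψρ⟩ := hE ρ hρ (real_of_fsi_ne_zero hρ (by rw [hρ1]; exact one_ne_zero)) hρ1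
      ⟨ψ₁, h1, fun y => sub_eq_zero.1 (congrFun h8 y)⟩
    refine fsi_ne_zero_of_real hψ hψr (hc ψ hψ ?_)
    rw [hinner, show (fun y : P0 => ψ ⟨y, h.le y.2⟩) = ρ from funext hψρ, hres, heq, classInner_add_left,
      classInner_irr_self hρ]
    norm_num
  · -- `χ` is irreducible on `P`
    have hnorm : classInner (fun y : P => χ y) (fun y : P => χ y) = 1 := by
      rw [hinner]
      change (2 : ℂ)⁻¹ * classInner (fun y : P0 => χ y) (fun y : P0 => χ y) = 1
      rw [hres, classInner_add_left, classInner_add_right, classInner_add_right, classInner_irr_self hρ,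
        classInner_irr_self hρ'irr, classInner_irr_ne hρ hρ'irr (Ne.symm heq), classInner_irr_ne hρ'irr hρ heq]
      norm_num
    have hirr : IsIrrCharacter P (fun y => χ y) := isIrr_of_classInner_self hch hnorm
    refine fsi_ne_zero_of_real hirr (fun y => hreal y) (hc _ hirr ?_)
    rw [hnorm]
    exact one_ne_zero

end DS

end Cfsg.Agent.H842.FR
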